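import Mathlib
import Cfsg.Agent.Lib.McLRank3.Data

/-!
# Kernel computations for the rank 3 recognition of the McLaughlin group, and their soundness

* `dfs`: all subsets of the 112 points meeting each of the 280 lines in two points;
* `closeN`: orbits of a list of permutations, as masks;
* `clChk`: a sequence of points each of which is determined by its adjacencies to the earlier ones.
-/

set_option autoImplicit false

namespace Cfsg.Agent.Lib.McLRank3.Comp

open Cfsg.Agent.Lib.Compute.PermCert Cfsg.Agent.Lib.McLRank3.Data MulAction Finset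

/-- Bit test. -/
def bit (m i : Nat) : Bool := Nat.beq (Nat.land (Nat.shiftRight m i) 1) 1

theorem bit_eq (m i : Nat) : bit m i = m.testBit i := by
  unfold bit
  have h1 : Nat.land (Nat.shiftRight m i) 1 = (m >>> i) % 2 := Nat.and_one_is_mod _
  rw [h1]
  unfold Nat.testBit
  rw [Nat.one_and_eq_mod_two]
  rcases Nat.mod_two_eq_zero_or_one (m >>> i) with h | h <;> rw [h] <;> rfl

theorem bit_lor (a b i : Nat) : bit (Nat.lor a b) i = (bit a i || bit b i) := by
  rw [bit_eq, bit_eq, bit_eq]
  exact Nat.testBit_or a b i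

theorem bit_pow (x j : Nat) : bit (Nat.pow 2 x) j = true ↔ j = x := by
  rw [bit_eq]
  show (2 ^ x).testBit j = true ↔ _
  rw [Nat.testBit_two_pow]
  simp [eq_comm]

theorem bit_zero (j : Nat) : bit 0 j = false := by
  rw [bit_eq]
  simp

theorem bit_land (a b i : Nat) : bit (Nat.land a b) i = (bit a i && bit b i) := by
  rw [bit_eq, bit_eq, bit_eq]
  exact Nat.testBit_and a b i

theorem bit_shift (a s i : Nat) : bit (Nat.shiftRight a s) i = bit a (s + i) := by
  rw [bit_eq, bit_eq]
  exact Nat.testBit_shiftRight a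

/-! ### The search -/

/-- The point is on the line. -/
def inLine (x : Nat) (l : Nat × Nat × Nat × Nat) : Bool :=
  Nat.beq x l.1 || Nat.beq x l.2.1 || Nat.beq x l.2.2.1 || Nat.beq x l.2.2.2

/-- The mask of the lines of a list through a point. -/
def lxGo (x : Nat) : List (Nat × Nat × Nat × Nat) → Nat → Nat
  | [], _ => 0
  | l :: ls, k => cond (inLine x l) (Nat.lor (Nat.pow 2 k) (lxGo x ls (k + 1))) (lxGo x ls (k + 1))

/-- The mask of the lines through a point. -/
def lx (x : Nat) : Nat := lxGo x lineL 0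

/-- The point is on the line with the given number. -/
def OnL (x ℓ : Nat) : Prop := ∃ l, lineL[ℓ]? = some l ∧ inLine x l = true

theorem lxGo_spec (x : Nat) (ls : List (Nat × Nat × Nat × Nat)) (k ℓ : Nat) (h : bit (lxGo x ls k) ℓ = true) :
    ∃ j l, ℓ = k + j ∧ ls[j]? = some l ∧ inLine x l = true := by
  induction ls generalizing k with
  | nil =>
    simp [lxGo, bit_zero] at h
  | cons l ls ih =>
    have step : bit (lxGo x ls (k + 1)) ℓ = true → ∃ j l', ℓ = k + j ∧ (l :: ls)[j]? = some l' ∧ inLine x l' = true := by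
      intro h'
      obtain ⟨j, l', e, hj, hl⟩ := ih (k + 1) h'
      exact ⟨j + 1, l', by omega, by simpa using hj, hl⟩
    by_cases hx : inLine x l = true
    · simp only [lxGo, hx, cond_true] at h
      rw [bit_lor, Bool.or_eq_true, bit_pow] at h
      rcases h with h | h
      · exact ⟨0, l, by omega, by simp, hx⟩
      · exact step h
    · simp only [Bool.not_eq_true] at hx
      simp only [lxGo, hx, cond_false] at h
      exact step h

theorem lx_spec (x ℓ : Nat) (h : bit (lx x) ℓ = true) : OnL x ℓ := by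
  obtain ⟨j, l, e, hj, hl⟩ := lxGo_spec x lineL 0 ℓ h
  have : ℓ = j := by omega
  subst this
  exact ⟨l, hj, hl⟩

/-- No three points of a line have the property. -/
def NoThree (Z : Nat → Prop) : Prop :=
  ∀ x y z ℓ, OnL x ℓ → OnL y ℓ → OnL z ℓ → x ≠ y → x ≠ z → y ≠ z → ¬(Z x ∧ Z y ∧ Z z)

/-- The invariant of the search: `a` is the mask of the lines with a point of the processed part having the
property, `b` the mask of the lines with two such points. -/
def Inv (D Z : Nat → Prop) (a b : Nat) : Prop :=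
  (∀ ℓ, bit a ℓ = true → ∃ y, D y ∧ Z y ∧ OnL y ℓ) ∧
    (∀ ℓ, bit b ℓ = true → ∃ y y', y ≠ y' ∧ D y ∧ D y' ∧ Z y ∧ Z y' ∧ OnL y ℓ ∧ OnL y' ℓ)

theorem Inv.mono {D Z : Nat → Prop} {a b : Nat} (x : Nat) (h : Inv D Z a b) :
    Inv (fun y => D y ∨ y = x) Z a b := by
  constructor
  · intro ℓ hℓ
    obtain ⟨y, h1, h2, h3⟩ := h.1 ℓ hℓ
    exact ⟨y, Or.inl h1, h2, h3⟩
  · intro ℓ hℓ
    obtain ⟨y, y', h0, h1, h1', h2, h3⟩ := h.2 ℓ hℓ
    exact ⟨y, y', h0, Or.inl h1, Or.inl h1', h2, h3⟩

theorem Inv.step {D Z : Nat → Prop} {a b x : Nat} (h : Inv D Z a b) (hx : ¬ D x) (hz : Z x) :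
    Inv (fun y => D y ∨ y = x) Z (Nat.lor a (lx x)) (Nat.lor b (Nat.land a (lx x))) := by
  constructor
  · intro ℓ hℓ
    rw [bit_lor, Bool.or_eq_true] at hℓ
    rcases hℓ with hℓ | hℓ
    · obtain ⟨y, h1, h2, h3⟩ := h.1 ℓ hℓ
      exact ⟨y, Or.inl h1, h2, h3⟩
    · exact ⟨x, Or.inr rfl, hz, lx_spec x ℓ hℓ⟩
  · intro ℓ hℓ
    rw [bit_lor, Bool.or_eq_true, bit_land, Bool.and_eq_true] at hℓ
    rcases hℓ with hℓ | ⟨hℓ, hℓ'⟩
    · obtain ⟨y, y', h0, h1, h1', h2, h3⟩ := h.2 ℓ hℓ
      exact ⟨y, y', h0, Or.inl h1, Or.inl h1', h2, h3⟩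
    · obtain ⟨y, h1, h2, h3⟩ := h.1 ℓ hℓ
      refine ⟨y, x, ?_, Or.inl h1, Or.inr rfl, h2, hz, h3, lx_spec x ℓ hℓ'⟩
      rintro rfl
      exact hx h1

theorem Inv.test {D Z : Nat → Prop} {a b x : Nat} (h : Inv D Z a b) (hN : NoThree Z) (hx : ¬ D x) (hz : Z x) :
    Nat.beq (Nat.land b (lx x)) 0 = true := by
  rw [Nat.beq_eq]
  apply Nat.eq_of_testBit_eq
  intro ℓ
  rw [← bit_eq, bit_land, Nat.zero_testBit]
  by_contra hne
  simp only [Bool.not_eq_false, Bool.and_eq_true] at hne
  obtain ⟨y, y', h0, h1, h1', h2, h3, h4, h5⟩ := h.2 ℓ hne.1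
  have hyx : y ≠ x := by
    rintro rfl
    exact hx h1
  have hyx' : y' ≠ x := by
    rintro rfl
    exact hx h1'
  exact hN y y' x ℓ h4 h5 (lx_spec x ℓ hne.2) h0 hyx hyx' ⟨h2, h3, hz⟩

/-- The search: the point is put into the set, if this leaves at most two points of the set on each line
through it, or out of it, if this leaves at most two points outside of the set on each line through it. -/
def dfs2 : List Nat → Nat → Nat → Nat → Nat → Nat → List Nat
  | [], _, _, _, _, m => [m]
  | x :: rest, i1, i2, o1, o2, m =>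
    (cond (Nat.beq (Nat.land i2 (lx x)) 0)
      (dfs2 rest (Nat.lor i1 (lx x)) (Nat.lor i2 (Nat.land i1 (lx x))) o1 o2 (Nat.lor m (Nat.pow 2 x))) []) ++
    (cond (Nat.beq (Nat.land o2 (lx x)) 0)
      (dfs2 rest i1 i2 (Nat.lor o1 (lx x)) (Nat.lor o2 (Nat.land o1 (lx x))) m) [])

theorem dfs2_complete (T : Nat → Prop) (hT : NoThree T) (hF : NoThree (fun j => ¬ T j)) (L : List Nat)
    (hnd : L.Nodup) (D : Nat → Prop) (hD : ∀ x ∈ L, ¬ D x) (i1 i2 o1 o2 m : Nat) (hi : Inv D T i1 i2)
    (ho : Inv D (fun j => ¬ T j) o1 o2) (hm : ∀ j, bit m j = true → T j) :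
    ∃ m' ∈ dfs2 L i1 i2 o1 o2 m, ∀ j, bit m' j = true ↔ (bit m j = true ∨ (j ∈ L ∧ T j)) := by
  induction L generalizing D i1 i2 o1 o2 m with
  | nil =>
    exact ⟨m, by simp [dfs2], fun j => by simp⟩
  | cons x rest ih =>
    obtain ⟨hx, hnd'⟩ := List.nodup_cons.1 hnd
    have hDx : ¬ D x := hD x List.mem_cons_self
    have hD' : ∀ u ∈ rest, ¬ (D u ∨ u = x) := by
      intro u hu
      rintro (h | rfl)
      · exact hD u (List.mem_cons_of_mem _ hu) h
      · exact hx hu
    by_cases hTx : T x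
    · have ht := hi.test hT hDx hTx
      obtain ⟨m', hm', hs⟩ := ih hnd' _ hD' _ _ o1 o2 (Nat.lor m (Nat.pow 2 x)) (hi.step hDx hTx) (ho.mono x) (by
        intro j hj
        rw [bit_lor, Bool.or_eq_true, bit_pow] at hj
        rcases hj with hj | hj
        · exact hm j hj
        · rw [hj]
          exact hTx)
      refine ⟨m', ?_, ?_⟩
      · simp only [dfs2, ht, cond_true, List.mem_append]
        exact Or.inl hm'
      · intro j
        rw [hs, bit_lor, Bool.or_eq_true, bit_pow]
        simp only [List.mem_cons]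
        constructor
        · rintro ((h | h) | h)
          · exact Or.inl h
          · exact Or.inr ⟨Or.inl h, h ▸ hTx⟩
          · exact Or.inr ⟨Or.inr h.1, h.2⟩
        · rintro (h | ⟨h | h, h'⟩)
          · exact Or.inl (Or.inl h)
          · exact Or.inl (Or.inr h)
          · exact Or.inr ⟨h, h'⟩
    · have ht := ho.test hF hDx hTx
      obtain ⟨m', hm', hs⟩ := ih hnd' _ hD' i1 i2 _ _ m (hi.mono x) (ho.step hDx hTx) hm
      refine ⟨m', ?_, ?_⟩
      · simp only [dfs2, ht, cond_true, List.mem_append]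
        exact Or.inr hm'
      · intro j
        rw [hs]
        simp only [List.mem_cons]
        constructor
        · rintro (h | h)
          · exact Or.inl h
          · exact Or.inr ⟨Or.inr h.1, h.2⟩
        · rintro (h | ⟨h | h, h'⟩)
          · exact Or.inl h
          · exact (hTx (h ▸ h')).elim
          · exact Or.inr ⟨h, h'⟩

/-! ### Orbits as masks -/

theorem foldl_inv {α β : Type*} (P : β → Prop) (f : β → α → β) (l : List α) (init : β) (h : P init)
    (hf : ∀ b, ∀ a ∈ l, P b → P (f b a)) : P (l.foldl f init) := by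
  induction l generalizing init with
  | nil => exact h
  | cons a l ih =>
    exact ih _ (hf _ _ List.mem_cons_self h) (fun b c hc hb => hf b c (List.mem_cons_of_mem _ hc) hb)

/-- One step of the closure under a list of permutations. -/
def stepC (gens : List Elt) (m : Nat) : Nat :=
  (List.range 275).foldl (fun acc i => cond (bit m i)
    (gens.foldl (fun a e => Nat.lor a (Nat.pow 2 (get 9 511 e.f i))) acc) acc) m

/-- `n` steps of the closure. -/
def closeN (gens : List Elt) : Nat → Nat → Nat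
  | 0, m => m
  | n + 1, m => closeN gens n (stepC gens m)

theorem close_sound (Q : Subgroup (Equiv.Perm (Fin 275))) (gens : List Elt)
    (hv : ∀ e ∈ gens, validB 9 511 275 e = true) (hQ : ∀ e ∈ gens, permOf 9 511 275 e ∈ Q) (x0 : Fin 275)
    (n m : Nat) (hm : ∀ j, bit m j = true → ∃ q ∈ Q, (q x0 : ℕ) = j) :
    ∀ j, bit (closeN gens n m) j = true → ∃ q ∈ Q, (q x0 : ℕ) = j := by
  induction n generalizing m with
  | zero => exact hm
  | succ n ih =>
    apply ih
    unfold stepC
    refine foldl_inv (fun acc => ∀ j, bit acc j = true → ∃ q ∈ Q, (q x0 : ℕ) = j) _ _ _ hm ?_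
    intro acc i _ hacc
    by_cases hb : bit m i = true
    · rw [hb, cond_true]
      obtain ⟨q, hq, hqi⟩ := hm i hb
      refine foldl_inv (fun acc => ∀ j, bit acc j = true → ∃ q ∈ Q, (q x0 : ℕ) = j) _ _ _ hacc ?_
      intro a e he ha j hj
      rw [bit_lor, Bool.or_eq_true, bit_pow] at hj
      rcases hj with hj | hj
      · exact ha j hj
      · refine ⟨permOf 9 511 275 e * q, Q.mul_mem (hQ e he) hq, ?_⟩
        rw [hj, Equiv.Perm.mul_apply, permOf_apply (hv e he), hqi]
    · simp only [Bool.not_eq_true] at hb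
      rw [hb, cond_false]
      exact hacc

theorem exists_of_close (Q : Subgroup (Equiv.Perm (Fin 275))) (gens : List Elt)
    (hv : ∀ e ∈ gens, validB 9 511 275 e = true) (hQ : ∀ e ∈ gens, permOf 9 511 275 e ∈ Q) (x0 : Fin 275)
    (n M : Nat) (h : closeN gens n (Nat.pow 2 x0) = M) (y : Fin 275) (hy : bit M y = true) :
    ∃ q ∈ Q, q x0 = y := by
  subst h
  obtain ⟨q, hq, hy'⟩ := close_sound Q gens hv hQ x0 n _ (fun j hj => by
    rw [bit_pow] at hj
    exact ⟨1, Q.one_mem, by simp [hj]⟩) _ hy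
  exact ⟨q, hq, Fin.ext hy'⟩

/-! ### The automorphisms of the graph -/

/-- The mask of the 275 points. -/
def M275 : Nat := nat_lit 0x7ffffffffffffffffffffffffffffffffffffffffffffffffffffffffffffffffffff

/-- The row of the adjacency table. -/
def rowN (x : Nat) : Nat := Nat.land (Nat.shiftRight AD (Nat.mul 275 x)) M275

/-- The adjacency table. -/
def adjN (x y : Nat) : Bool := bit (rowN x) y

/-- The automorphisms of the graph. -/
def AutG : Subgroup (Equiv.Perm (Fin 275)) where
  carrier := {g | ∀ x y : Fin 275, adjN (g x) (g y) = adjN x y}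
  mul_mem' := by
    intro g h hg hh x y
    simp only [Equiv.Perm.mul_apply]
    rw [hg, hh]
  one_mem' := by
    intro x y
    rfl
  inv_mem' := by
    intro g hg x y
    have := hg (g⁻¹ x) (g⁻¹ y)
    simpa using this.symm

theorem mem_AutG {g : Equiv.Perm (Fin 275)} : g ∈ AutG ↔ ∀ x y : Fin 275, adjN (g x) (g y) = adjN x y :=
  Iff.rfl

/-- A point from a number. -/
def fo (v : Nat) : Fin 275 := Fin.ofNat 275 v

theorem fo_val {v : Nat} (h : v < 275) : (fo v : ℕ) = v := Nat.mod_eq_of_lt h

/-- The automorphisms fixing a list of points. -/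
def Fx : List Nat → Subgroup (Equiv.Perm (Fin 275))
  | [] => AutG
  | v :: bs => Fx bs ⊓ stabilizer (Equiv.Perm (Fin 275)) (fo v)

theorem Fx_le (bs : List Nat) : Fx bs ≤ AutG := by
  induction bs with
  | nil => exact le_rfl
  | cons v bs ih => exact inf_le_left.trans ih

theorem Fx_fix {bs : List Nat} {g : Equiv.Perm (Fin 275)} (hg : g ∈ Fx bs) : ∀ b ∈ bs, g (fo b) = fo b := by
  induction bs with
  | nil => simp
  | cons v bs ih =>
    intro b hb
    rcases List.mem_cons.1 hb with rfl | hb
    · exact hg.2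
    · exact ih hg.1 b hb

/-- The points with the same adjacencies to a list as a given one. -/
def cell (bs : List Nat) (v : Nat) : Finset (Fin 275) :=
  univ.filter fun w => bs.all (fun b => adjN w b == adjN v b) = true

theorem inf_stab_card {P X : Type*} [Group P] [Finite P] [MulAction P X] (Q : Subgroup P) (x : X) :
    Nat.card ↥(Q ⊓ stabilizer P x) * (orbit Q x).ncard = Nat.card Q := by
  have h1 := index_stabilizer Q x
  have h2 := Subgroup.card_mul_index (stabilizer Q x)
  rw [h1] at h2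
  have h3 : Nat.card (stabilizer Q x) = Nat.card ↥(Q ⊓ stabilizer P x) :=
    Nat.card_congr
      { toFun := fun g => ⟨g.1.1, g.1.2, g.2⟩
        invFun := fun g => ⟨⟨g.1, g.2.1⟩, g.2.2⟩
        left_inv := fun _ => rfl
        right_inv := fun _ => rfl }
  rw [← h3, h2]

theorem Fx_step (bs : List Nat) (hbs : ∀ b ∈ bs, b < 275) (v : Nat) (hv : v < 275) :
    Nat.card (Fx bs) ≤ (cell bs v).card * Nat.card (Fx (v :: bs)) := by
  have h := inf_stab_card (Fx bs) (fo v)
  have hsub : orbit (Fx bs) (fo v) ⊆ (cell bs v : Set (Fin 275)) := by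
    rintro _ ⟨g, rfl⟩
    simp only [cell, coe_filter, mem_univ, true_and, Set.mem_setOf_eq, List.all_eq_true, beq_iff_eq]
    intro b hb
    have h1 := Fx_fix g.2 b hb
    have h2 := (Fx_le bs g.2) (fo v) (fo b)
    rw [h1, fo_val (hbs b hb), fo_val hv] at h2
    exact h2
  have hle : (orbit (Fx bs) (fo v)).ncard ≤ (cell bs v).card := by
    have := Set.ncard_le_ncard hsub (Finset.finite_toSet _)
    rwa [Set.ncard_coe_finset] at this
  rw [← h]
  show _ ≤ (cell bs v).card * Nat.card ↥(Fx bs ⊓ stabilizer (Equiv.Perm (Fin 275)) (fo v))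
  rw [mul_comm]
  exact Nat.mul_le_mul_right _ hle

theorem beq_false_iff {a b : Nat} : Nat.beq a b = false ↔ a ≠ b := by
  rw [← Bool.not_eq_true, Nat.beq_eq]

theorem bit_xor (a b i : Nat) : bit (Nat.xor a b) i = (bit a i ^^ bit b i) := by
  rw [bit_eq, bit_eq, bit_eq]
  exact Nat.testBit_xor a b i

theorem sep_spec {a b F : Nat} (h : Nat.beq (Nat.land (Nat.xor a b) F) 0 = false) :
    ∃ f, bit F f = true ∧ bit a f ≠ bit b f := by
  by_contra hn
  push Not at hn
  rw [beq_false_iff] at h
  apply h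
  apply Nat.eq_of_testBit_eq
  intro f
  rw [← bit_eq, bit_land, bit_xor, Nat.zero_testBit]
  by_cases hF : bit F f = true
  · rw [hF, hn f hF]
    simp
  · simp only [Bool.not_eq_true] at hF
    rw [hF]
    simp

/-- The mask of a list. -/
def maskL : List Nat → Nat
  | [] => 0
  | x :: l => Nat.lor (Nat.pow 2 x) (maskL l)

theorem bit_maskL (l : List Nat) (j : Nat) : bit (maskL l) j = true ↔ j ∈ l := by
  induction l with
  | nil => simp [maskL, bit_zero]
  | cons x l ih =>
    rw [maskL, bit_lor, Bool.or_eq_true, bit_pow, ih, List.mem_cons]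

/-- The check that each point of a list is determined by its adjacencies to the earlier ones. -/
def clChk : List Nat → Nat → Bool
  | [], _ => true
  | v :: rest, F =>
    Nat.blt v 275 && allB (fun w => Nat.beq w v || !Nat.beq (Nat.land (Nat.xor (rowN v) (rowN w)) F) 0) 275 &&
      clChk rest (Nat.lor F (Nat.pow 2 v))

theorem clChk_sound {g : Equiv.Perm (Fin 275)} (hg : g ∈ AutG) (cl : List Nat) (F : Nat)
    (hF : ∀ f, bit F f = true → f < 275 ∧ g (fo f) = fo f) (h : clChk cl F = true) :
    ∀ v ∈ cl, v < 275 ∧ g (fo v) = fo v := by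
  induction cl generalizing F with
  | nil => simp
  | cons v rest ih =>
    simp only [clChk, Bool.and_eq_true, Nat.blt_eq] at h
    obtain ⟨⟨hv, hall⟩, hrest⟩ := h
    have hgv : g (fo v) = fo v := by
      have h1 := (allB_iff _ _).1 hall (g (fo v) : ℕ) (g (fo v)).2
      simp only [Bool.or_eq_true, Nat.beq_eq, Bool.not_eq_true'] at h1
      rcases h1 with h1 | h1
      · apply Fin.ext
        rw [h1, fo_val hv]
      · exfalso
        obtain ⟨f, hf, hne⟩ := sep_spec h1
        apply hne
        have h2 := hg (fo v) (fo f)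
        rw [(hF f hf).2, fo_val (hF f hf).1, fo_val hv] at h2
        exact h2.symm
    have hF' : ∀ f, bit (Nat.lor F (Nat.pow 2 v)) f = true → f < 275 ∧ g (fo f) = fo f := by
      intro f hf
      rw [bit_lor, Bool.or_eq_true, bit_pow] at hf
      rcases hf with hf | rfl
      · exact hF f hf
      · exact ⟨hv, hgv⟩
    intro u hu
    rcases List.mem_cons.1 hu with rfl | hu
    · exact ⟨hv, hgv⟩
    · exact ih _ hF' hrest u hu

theorem Fx_eq_bot (bs cl : List Nat) (hbs : ∀ b ∈ bs, b < 275) (h : clChk cl (maskL bs) = true)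
    (hall : allB (fun x => bit (maskL (bs ++ cl)) x) 275 = true) : Fx bs = ⊥ := by
  rw [eq_bot_iff]
  intro g hg
  have h1 := clChk_sound (Fx_le bs hg) cl (maskL bs) (fun f hf => by
    rw [bit_maskL] at hf
    exact ⟨hbs f hf, Fx_fix hg f hf⟩) h
  rw [Subgroup.mem_bot]
  ext x
  have h2 := (allB_iff _ _).1 hall x x.2
  rw [bit_maskL, List.mem_append] at h2
  have h3 : g (fo x) = fo x := by
    rcases h2 with h2 | h2
    · exact Fx_fix hg _ h2
    · exact (h1 _ h2).2
  have h4 : fo x = x := Fin.ext (fo_val x.2)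
  rw [h4] at h3
  rw [h3]
  rfl

end Cfsg.Agent.Lib.McLRank3.Comp
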