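import Mathlib
import Cfsg.Agent.Lib.McLRank3.Comp

/-!
# The group theory and the counting in the rank 3 recognition of the McLaughlin group

* a subgroup of index 112 of a suitable group acting on 112 points is a point stabiliser;
* in a strongly regular graph with parameters (275, 112, 30, 56), a point outside a 5-clique is adjacent to
  exactly two points of the clique;
* two subgroups of the same order, one of them simple, in a group of at most twice that order coincide.
-/

set_option autoImplicit false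

namespace Cfsg.Agent.Lib.McLRank3.Abstract

open MulAction Finset Cfsg.Agent.Lib.McLRank3.Comp

section Index

variable {P X : Type*} [Group P] [Finite P] [MulAction P X]

theorem card_inf_smul (p : P) (x y : X) :
    Nat.card ↥(stabilizer P (p • x) ⊓ stabilizer P (p • y)) = Nat.card ↥(stabilizer P x ⊓ stabilizer P y) := by
  have hf : ∀ (g : P) (z : X), g • z = z → (p⁻¹ * (p * g * p⁻¹) * p) • z = z := by
    intro g z h
    have e : p⁻¹ * (p * g * p⁻¹) * p = g := by group
    rw [e, h]
  refine Nat.card_congr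
    { toFun := fun g => ⟨p⁻¹ * g.1 * p, ?_⟩
      invFun := fun g => ⟨p * g.1 * p⁻¹, ?_⟩
      left_inv := fun g => Subtype.ext (by simp [mul_assoc])
      right_inv := fun g => Subtype.ext (by simp [mul_assoc]) }
  · have h1 : g.1 • (p • x) = p • x := g.2.1
    have h2 : g.1 • (p • y) = p • y := g.2.2
    refine ⟨?_, ?_⟩
    · show (p⁻¹ * g.1 * p) • x = x
      rw [mul_smul, mul_smul, h1, inv_smul_smul]
    · show (p⁻¹ * g.1 * p) • y = y
      rw [mul_smul, mul_smul, h2, inv_smul_smul]
  · have h1 : g.1 • x = x := g.2.1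
    have h2 : g.1 • y = y := g.2.2
    refine ⟨?_, ?_⟩
    · show (p * g.1 * p⁻¹) • (p • x) = p • x
      rw [mul_smul, mul_smul, inv_smul_smul, h1]
    · show (p * g.1 * p⁻¹) • (p • y) = p • y
      rw [mul_smul, mul_smul, inv_smul_smul, h2]

/-- A subgroup of the order of a point stabiliser is a point stabiliser. -/
theorem exists_eq_stab [Finite X] (adj : X → X → Prop)
    (hinv : ∀ (p : P) (x y : X), adj (p • x) (p • y) ↔ adj x y)
    (hX : Nat.card X = 112)
    (hst : ∀ x : X, Nat.card (stabilizer P x) = 29160)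
    (hN : ∀ x y : X, x ≠ y → ¬ adj x y → Nat.card ↥(stabilizer P x ⊓ stabilizer P y) = 360)
    (hA : ∀ x y : X, adj x y → Nat.card ↥(stabilizer P x ⊓ stabilizer P y) ≤ 972)
    (hcl : ∀ x y : X, adj x y → ∀ s : Finset X, (∀ w ∈ s, adj x w ∧ adj y w) → s.card ≤ 2)
    (H : Subgroup P) (hH : Nat.card H = 29160) : ∃ x : X, H = stabilizer P x := by
  classical
  haveI : Fintype X := Fintype.ofFinite X
  haveI : Fact (Nat.Prime 3) := ⟨by norm_num⟩
  have h729 : 3 ^ 6 ∣ Nat.card H := by
    rw [hH]
    norm_num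
  obtain ⟨S0, hS0⟩ := Sylow.exists_subgroup_card_pow_prime (G := H) 3 h729
  let S : Subgroup P := S0.map H.subtype
  have hSH : S ≤ H := by
    rintro _ ⟨s, -, rfl⟩
    exact s.2
  have hS : Nat.card S = 3 ^ 6 := by
    rw [← hS0]
    exact Subgroup.card_map_of_injective H.subtype_injective
  -- the fixed point
  have hp : IsPGroup 3 S := IsPGroup.of_card hS
  have hmod := hp.card_modEq_card_fixedPoints X
  have hne : Nat.card (fixedPoints S X) ≠ 0 := by
    intro h0
    rw [h0, hX] at hmod
    exact absurd hmod (by decide)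
  haveI : Finite (fixedPoints S X) := Subtype.finite
  obtain ⟨⟨y, hy⟩⟩ : Nonempty (fixedPoints S X) := by
    by_contra h
    rw [not_nonempty_iff] at h
    exact hne Nat.card_of_isEmpty
  have hSy : S ≤ stabilizer P y := fun s hs => hy ⟨s, hs⟩
  -- the orbit
  set Ξ : Set X := orbit H y with hΞ
  have h1 := inf_stab_card H y
  rw [hH] at h1
  have hdvd : (3 ^ 6 : ℕ) ∣ Nat.card ↥(H ⊓ stabilizer P y) := by
    rw [← hS]
    exact Subgroup.card_dvd_of_le (le_inf hSH hSy)
  have hΞ40 : Ξ.ncard ≤ 40 := by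
    obtain ⟨t, ht⟩ := hdvd
    rw [ht] at h1
    have h2 : t * Ξ.ncard = 40 := by
      have : 3 ^ 6 * (t * Ξ.ncard) = 3 ^ 6 * 40 := by
        rw [← mul_assoc, h1]
        norm_num
      exact Nat.eq_of_mul_eq_mul_left (by norm_num) this
    have ht0 : t ≠ 0 := by
      rintro rfl
      simp at h2
    calc Ξ.ncard ≤ t * Ξ.ncard := Nat.le_mul_of_pos_left _ (Nat.pos_of_ne_zero ht0)
      _ = 40 := h2
  have hΞfin : Ξ.Finite := Set.toFinite _
  have horbS : ∀ z ∈ Ξ, orbit S z ⊆ Ξ := by
    rintro z ⟨h, rfl⟩ _ ⟨s, rfl⟩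
    exact ⟨⟨s.1, hSH s.2⟩ * h, mul_smul (⟨s.1, hSH s.2⟩ : H) h y⟩
  -- the elements of the orbit are adjacent to the point
  have hadj : ∀ z ∈ Ξ, z ≠ y → adj y z := by
    intro z hz hne
    by_contra hn
    have h3 := inf_stab_card S z
    rw [hS] at h3
    have h4 : Nat.card ↥(S ⊓ stabilizer P z) ∣ Nat.card ↥(stabilizer P y ⊓ stabilizer P z) :=
      Subgroup.card_dvd_of_le (inf_le_inf_right _ hSy)
    rw [hN y z hne.symm hn] at h4
    have h5 : Nat.card ↥(S ⊓ stabilizer P z) ∣ 3 ^ 6 := ⟨_, h3.symm⟩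
    have h6 : Nat.card ↥(S ⊓ stabilizer P z) ∣ 9 := by
      have := Nat.dvd_gcd h4 h5
      norm_num at this
      exact this
    have h7 := Nat.le_of_dvd (by norm_num) h6
    have h8 : (orbit S z).ncard ≤ 40 := (Set.ncard_le_ncard (horbS z hz) hΞfin).trans hΞ40
    have h9 : Nat.card ↥(S ⊓ stabilizer P z) * (orbit S z).ncard ≤ 9 * 40 := Nat.mul_le_mul h7 h8
    rw [h3] at h9
    norm_num at h9
  have hyΞ : y ∈ Ξ := mem_orbit_self y
  -- the orbit is a clique
  have hcq : ∀ z ∈ Ξ, ∀ z' ∈ Ξ, z ≠ z' → adj z z' := by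
    rintro _ ⟨h, rfl⟩ z' hz' hne
    have hz'' : h⁻¹ • z' ∈ Ξ := by
      obtain ⟨k, rfl⟩ := hz'
      exact ⟨h⁻¹ * k, mul_smul h⁻¹ k y⟩
    have hne' : h⁻¹ • z' ≠ y := by
      intro e
      apply hne
      have e' : h • (h⁻¹ • z') = z' := smul_inv_smul h z'
      rw [e] at e'
      exact e'
    have h2 := hadj _ hz'' hne'
    have h3 := (hinv h.1 y (h⁻¹ • z')).2 h2
    have e : h.1 • (h⁻¹ • z') = z' := smul_inv_smul h z'
    rw [e] at h3
    exact h3
  by_cases htriv : ∀ z ∈ Ξ, z = y
  · refine ⟨y, Subgroup.eq_of_le_of_card_ge ?_ ?_⟩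
    · intro h hh
      exact htriv (⟨h, hh⟩ • y) (mem_orbit _ _)
    · rw [hst y, hH]
  · exfalso
    push Not at htriv
    obtain ⟨z, hz, hzy⟩ := htriv
    -- at most four points
    have hΞ4 : Ξ.ncard ≤ 4 := by
      have h2 : (hΞfin.toFinset \ {y, z}).card ≤ 2 := by
        apply hcl y z (hadj z hz hzy)
        intro w hw
        simp only [mem_sdiff, Set.Finite.mem_toFinset, mem_insert, mem_singleton, not_or] at hw
        exact ⟨hcq y hyΞ w hw.1 (Ne.symm hw.2.1), hcq z hz w hw.1 (Ne.symm hw.2.2)⟩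
      have h3 : hΞfin.toFinset.card ≤ ((hΞfin.toFinset \ {y, z}).card) + ({y, z} : Finset X).card :=
        Finset.card_le_card_sdiff_add_card
      have h4 : ({y, z} : Finset X).card ≤ 2 := Finset.card_le_two
      rw [Set.ncard_eq_toFinset_card Ξ hΞfin]
      omega
    set L : Subgroup P := H ⊓ stabilizer P y with hL
    have h2 := inf_stab_card L z
    have hLH : L ≤ H := inf_le_left
    have hsub : orbit L z ⊆ Ξ \ {y} := by
      rintro _ ⟨l, rfl⟩
      obtain ⟨k, hk⟩ := hz
      refine ⟨?_, ?_⟩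
      · refine ⟨⟨l.1, hLH l.2⟩ * k, ?_⟩
        show (⟨l.1, hLH l.2⟩ * k : H) • y = l • z
        have hk' : k • y = z := hk
        rw [mul_smul, hk']
        rfl
      · intro e
        have e1 : l.1 • z = y := e
        have e2 : l.1 • y = y := l.2.2
        apply hzy
        exact MulAction.injective l.1 (e1.trans e2.symm)
    have h3 : (orbit L z).ncard ≤ 3 := by
      have h4 := Set.ncard_le_ncard hsub (hΞfin.diff)
      have h5 : (Ξ \ {y}).ncard = Ξ.ncard - 1 := Set.ncard_diff_singleton_of_mem hyΞ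
      omega
    have h4 : Nat.card ↥(L ⊓ stabilizer P z) ≤ 972 :=
      (Subgroup.card_le_of_le (inf_le_inf_right _ inf_le_right)).trans (hA y z (hadj z hz hzy))
    have h5 : Nat.card L ≤ 972 * 3 := by
      rw [← h2]
      exact Nat.mul_le_mul h4 h3
    have h6 : Nat.card L * Ξ.ncard ≤ 972 * 3 * 4 := Nat.mul_le_mul h5 hΞ4
    rw [h1] at h6
    norm_num at h6

end Index

section SRG

variable {V : Type*} [Fintype V] [DecidableEq V] {Γ : SimpleGraph V} [DecidableRel Γ.Adj]

theorem card_nbr {n k l m : ℕ} (hΓ : Γ.IsSRGWith n k l m) (x : V) : (univ.filter (fun u => Γ.Adj x u)).card = k := by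
  rw [← SimpleGraph.neighborFinset_eq_filter, SimpleGraph.card_neighborFinset_eq_degree]
  exact hΓ.regular x

theorem card_common {n k l m : ℕ} (hΓ : Γ.IsSRGWith n k l m) {x y : V} (h : Γ.Adj x y) :
    (univ.filter (fun u => Γ.Adj x u ∧ Γ.Adj y u)).card = l := by
  rw [← hΓ.of_adj x y h]
  symm
  apply Fintype.card_of_subtype
  intro u
  simp [SimpleGraph.mem_commonNeighbors]

theorem card_common' {n k l m : ℕ} (hΓ : Γ.IsSRGWith n k l m) {x y : V} (hne : x ≠ y) (h : ¬ Γ.Adj x y) :
    (univ.filter (fun u => Γ.Adj x u ∧ Γ.Adj y u)).card = m := by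
  rw [← hΓ.of_not_adj hne h]
  symm
  apply Fintype.card_of_subtype
  intro u
  simp [SimpleGraph.mem_commonNeighbors]

/-- The parameters. -/
theorem params {l m : ℕ} (hΓ : Γ.IsSRGWith 275 112 l m) : l = 30 ∧ m = 56 := by
  have hp := hΓ.param_eq Γ (by norm_num)
  have hV : Fintype.card V = 275 := hΓ.card
  haveI : Nonempty V := Fintype.card_pos_iff.1 (by omega)
  have hk : ∀ x y : V, Γ.Adj x y → l ≤ 111 := by
    intro x y hxy
    have h1 := card_common hΓ hxy
    have h2 : univ.filter (fun u => Γ.Adj x u ∧ Γ.Adj y u) ⊆ (univ.filter (fun u => Γ.Adj x u)).erase y := by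
      intro u hu
      simp only [mem_filter, mem_univ, true_and, mem_erase] at hu ⊢
      exact ⟨fun e => Γ.loopless.irrefl y (by rw [e] at hu; exact hu.2), hu.1⟩
    have h3 := Finset.card_le_card h2
    rw [Finset.card_erase_of_mem (by simpa using hxy), card_nbr hΓ, h1] at h3
    omega
  -- the closed neighbourhoods
  let NN : V → Finset V := fun x => insert x (univ.filter (fun u => Γ.Adj x u))
  have hNN : ∀ x, (NN x).card = 113 := by
    intro x
    simp only [NN]
    rw [Finset.card_insert_of_notMem (by simp), card_nbr hΓ]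
  obtain ⟨a⟩ : Nonempty V := inferInstance
  have hl : l ≤ 111 := by
    obtain ⟨y, hy⟩ : (univ.filter (fun u => Γ.Adj a u)).Nonempty := by
      rw [← Finset.card_pos, card_nbr hΓ]
      norm_num
    exact hk a y (by simpa using hy)
  have hm0 : m ≠ 0 := by
    intro hm
    subst hm
    have hdisj : ∀ x y : V, y ∉ NN x → Disjoint (NN x) (NN y) := by
      intro x y hy
      rw [Finset.disjoint_left]
      intro u hu hu'
      simp only [NN, mem_insert, mem_filter, mem_univ, true_and, not_or] at hy hu hu'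
      have hxy : x ≠ y := fun e => hy.1 e.symm
      have h0 := card_common' hΓ hxy hy.2
      rw [Finset.card_eq_zero, Finset.filter_eq_empty_iff] at h0
      rcases hu with rfl | hu <;> rcases hu' with rfl | hu'
      · exact hxy rfl
      · exact hy.2 hu'.symm
      · exact hy.2 hu
      · exact h0 (mem_univ u) ⟨hu, hu'⟩
    obtain ⟨c, hc⟩ : ∃ c, c ∉ NN a := by
      by_contra h
      push Not at h
      have h1 : NN a = univ := Finset.eq_univ_iff_forall.2 h
      have h2 := hNN a
      rw [h1, Finset.card_univ, hV] at h2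
      norm_num at h2
    obtain ⟨d, hd⟩ : ∃ d, d ∉ NN a ∪ NN c := by
      by_contra h
      push Not at h
      have h1 : NN a ∪ NN c = univ := Finset.eq_univ_iff_forall.2 h
      have h2 := Finset.card_union_of_disjoint (hdisj a c hc)
      rw [h1, Finset.card_univ, hV, hNN, hNN] at h2
      norm_num at h2
    have hd' := Finset.notMem_union.1 hd
    have h3 : Disjoint (NN a ∪ NN c) (NN d) :=
      Finset.disjoint_union_left.2 ⟨hdisj a d hd'.1, hdisj c d hd'.2⟩
    have h4 := Finset.card_union_of_disjoint h3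
    rw [Finset.card_union_of_disjoint (hdisj a c hc), hNN, hNN, hNN] at h4
    have h5 := Finset.card_le_univ (NN a ∪ NN c ∪ NN d)
    rw [hV] at h5
    omega
  have h1 : 112 * (111 - l) = 162 * m := by
    have : 112 - l - 1 = 111 - l := by omega
    rw [this] at hp
    simpa using hp
  have h2 : 81 ∣ 111 - l := by
    have h3 : 81 ∣ 56 * (111 - l) := ⟨2 * m - m, by omega⟩
    exact (Nat.Coprime.dvd_mul_left (by norm_num)).1 h3
  obtain ⟨t, ht⟩ := h2
  have ht1 : t ≤ 1 := by omega
  interval_cases t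
  · exfalso
    apply hm0
    rw [ht] at h1
    omega
  · rw [ht] at h1
    omega

/-- A point outside a 5-clique is adjacent to two points of it. -/
theorem clique_two (hΓ : Γ.IsSRGWith 275 112 30 56) (C : Finset V) (hC : C.card = 5)
    (hcl : ∀ x ∈ C, ∀ y ∈ C, x ≠ y → Γ.Adj x y) (v : V) (hv : v ∉ C) :
    (C.filter (fun x => Γ.Adj v x)).card = 2 := by
  have hV : Fintype.card V = 275 := hΓ.card
  have hCc : Cᶜ.card = 270 := by
    rw [Finset.card_compl, hV, hC]
  have hsplit : ∀ (Q : V → Prop) [DecidablePred Q],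
      (Cᶜ.filter Q).card + (C.filter Q).card = (univ.filter Q).card := by
    intro Q _
    rw [← Finset.card_union_of_disjoint (Finset.disjoint_filter_filter disjoint_compl_left)]
    congr 1
    ext u
    by_cases hu : u ∈ C <;> simp [hu]
  have h1 : ∀ x ∈ C, (Cᶜ.filter (fun u => Γ.Adj u x)).card = 108 := by
    intro x hx
    have h2 := hsplit (fun u => Γ.Adj u x)
    have h3 : C.filter (fun u => Γ.Adj u x) = C.erase x := by
      ext u
      simp only [mem_filter, mem_erase]
      constructor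
      · rintro ⟨hu, h⟩
        exact ⟨h.ne, hu⟩
      · rintro ⟨hu, h⟩
        exact ⟨h, hcl u h x hx hu⟩
    have h4 : (univ.filter (fun u => Γ.Adj u x)).card = 112 := by
      rw [← card_nbr hΓ x]
      congr 1
      ext u
      simp [SimpleGraph.adj_comm]
    rw [h3, Finset.card_erase_of_mem hx, hC, h4] at h2
    omega
  have h2 : ∀ x ∈ C, ∀ y ∈ C, x ≠ y → (Cᶜ.filter (fun u => Γ.Adj u x ∧ Γ.Adj u y)).card = 27 := by
    intro x hx y hy hxy
    have h2 := hsplit (fun u => Γ.Adj u x ∧ Γ.Adj u y)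
    have h3 : C.filter (fun u => Γ.Adj u x ∧ Γ.Adj u y) = (C.erase x).erase y := by
      ext u
      simp only [mem_filter, mem_erase]
      constructor
      · rintro ⟨hu, h, h'⟩
        exact ⟨h'.ne, h.ne, hu⟩
      · rintro ⟨h', h, hu⟩
        exact ⟨hu, hcl u hu x hx h, hcl u hu y hy h'⟩
    have h4 : (univ.filter (fun u => Γ.Adj u x ∧ Γ.Adj u y)).card = 30 := by
      rw [← card_common hΓ (hcl x hx y hy hxy)]
      congr 1
      ext u
      simp [SimpleGraph.adj_comm]
    rw [h3, Finset.card_erase_of_mem (mem_erase.2 ⟨Ne.symm hxy, hy⟩), Finset.card_erase_of_mem hx, hC, h4] at h2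
    omega
  let n : V → ℕ := fun u => (C.filter (fun x => Γ.Adj u x)).card
  have hn : ∀ u, n u = ∑ x ∈ C, if Γ.Adj u x then 1 else 0 := fun u => Finset.card_filter _ _
  have s1 : ∑ u ∈ Cᶜ, n u = 540 := by
    simp_rw [hn]
    rw [Finset.sum_comm]
    have h3 : ∀ x ∈ C, ∑ u ∈ Cᶜ, (if Γ.Adj u x then 1 else 0) = 108 := fun x hx => by
      rw [← Finset.card_filter]
      exact h1 x hx
    rw [Finset.sum_congr rfl h3, sum_const, hC]
    rfl
  have s2 : ∑ u ∈ Cᶜ, n u * n u = 1080 := by
    have e : ∀ u, n u * n u = ∑ x ∈ C, ∑ y ∈ C, if (Γ.Adj u x ∧ Γ.Adj u y) then 1 else 0 := by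
      intro u
      rw [hn, Finset.sum_mul_sum]
      apply Finset.sum_congr rfl
      intro x _
      apply Finset.sum_congr rfl
      intro y _
      by_cases h3 : Γ.Adj u x <;> by_cases h4 : Γ.Adj u y <;> simp [h3, h4]
    simp_rw [e]
    rw [Finset.sum_comm]
    have key : ∀ x ∈ C, ∑ u ∈ Cᶜ, ∑ y ∈ C, (if (Γ.Adj u x ∧ Γ.Adj u y) then 1 else 0) = 216 := by
      intro x hx
      rw [Finset.sum_comm]
      have h3 : ∀ y ∈ C, ∑ u ∈ Cᶜ, (if (Γ.Adj u x ∧ Γ.Adj u y) then 1 else 0) = 27 + if y = x then 81 else 0 := by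
        intro y hy
        rw [← Finset.card_filter]
        by_cases hxy : y = x
        · subst hxy
          simp only [and_self, if_true]
          rw [h1 y hy]
        · rw [if_neg hxy, h2 x hx y hy (Ne.symm hxy)]
      rw [Finset.sum_congr rfl h3, sum_add_distrib, sum_const, hC, Finset.sum_ite_eq', if_pos hx]
      norm_num
    rw [Finset.sum_congr rfl key, sum_const, hC]
    rfl
  have s3 : ∑ u ∈ Cᶜ, ((n u : ℤ) - 2) ^ 2 = 0 := by
    have e : ∀ u, ((n u : ℤ) - 2) ^ 2 = ((n u * n u : ℕ) : ℤ) - 4 * (n u : ℤ) + 4 := by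
      intro u
      push_cast
      ring
    simp_rw [e]
    rw [sum_add_distrib, sum_sub_distrib, ← Finset.mul_sum, ← Nat.cast_sum, ← Nat.cast_sum, s1, s2, sum_const, hCc]
    norm_num
  have h5 := (Finset.sum_eq_zero_iff_of_nonneg (fun u _ => sq_nonneg _)).1 s3 v (mem_compl.2 hv)
  have h6 : (n v : ℤ) - 2 = 0 := (pow_eq_zero_iff two_ne_zero).1 h5
  show n v = 2
  omega

/-- The consequence for a 5-clique `a, x, u, v, w`, with a point not adjacent to `a`. -/
theorem two_props (hΓ : Γ.IsSRGWith 275 112 30 56) {a x u v w c : V} (hax : Γ.Adj a x) (hau : Γ.Adj a u)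
    (hav : Γ.Adj a v) (haw : Γ.Adj a w) (hxu : Γ.Adj x u) (hxv : Γ.Adj x v) (hxw : Γ.Adj x w) (huv : Γ.Adj u v)
    (huw : Γ.Adj u w) (hvw : Γ.Adj v w) (hca : c ≠ a) (hnc : ¬ Γ.Adj a c) :
    ¬(Γ.Adj x c ∧ Γ.Adj u c ∧ Γ.Adj v c) ∧ (Γ.Adj x c ∨ Γ.Adj u c ∨ Γ.Adj v c) := by
  let C : Finset V := {a, x, u, v, w}
  have hC : C.card = 5 := by
    simp only [C]
    rw [Finset.card_insert_of_notMem, Finset.card_insert_of_notMem, Finset.card_insert_of_notMem,
      Finset.card_insert_of_notMem, Finset.card_singleton]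
    · simp [hvw.ne]
    · simp [huv.ne, huw.ne]
    · simp [hxu.ne, hxv.ne, hxw.ne]
    · simp [hax.ne, hau.ne, hav.ne, haw.ne]
  have hcl : ∀ p ∈ C, ∀ q ∈ C, p ≠ q → Γ.Adj p q := by
    intro p hp q hq hpq
    simp only [C, mem_insert, mem_singleton] at hp hq
    rcases hp with rfl | rfl | rfl | rfl | rfl <;> rcases hq with rfl | rfl | rfl | rfl | rfl <;>
      first
      | exact absurd rfl hpq
      | assumption
      | (apply SimpleGraph.Adj.symm; assumption)
  have hc : c ∉ C := by
    simp only [C, mem_insert, mem_singleton, not_or]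
    refine ⟨hca, ?_, ?_, ?_, ?_⟩
    · rintro rfl
      exact hnc hax
    · rintro rfl
      exact hnc hau
    · rintro rfl
      exact hnc hav
    · rintro rfl
      exact hnc haw
  have h2 := clique_two hΓ C hC hcl c hc
  constructor
  · rintro ⟨h1, h3, h4⟩
    have h5 : ({x, u, v} : Finset V) ⊆ C.filter (fun z => Γ.Adj c z) := by
      intro z hz
      simp only [mem_insert, mem_singleton] at hz
      simp only [C, mem_filter, mem_insert, mem_singleton]
      rcases hz with rfl | rfl | rfl
      · exact ⟨by simp, h1.symm⟩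
      · exact ⟨by simp, h3.symm⟩
      · exact ⟨by simp, h4.symm⟩
    have h6 := Finset.card_le_card h5
    rw [h2, Finset.card_insert_of_notMem (by simp [hxu.ne, hxv.ne]), Finset.card_insert_of_notMem (by simp [huv.ne]),
      Finset.card_singleton] at h6
    omega
  · by_contra hno
    push Not at hno
    have h5 : C.filter (fun z => Γ.Adj c z) ⊆ {w} := by
      intro z hz
      simp only [C, mem_filter, mem_insert, mem_singleton] at hz
      obtain ⟨hz1, hz2⟩ := hz
      rcases hz1 with rfl | rfl | rfl | rfl | rfl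
      · exact (hnc hz2.symm).elim
      · exact (hno.1 hz2.symm).elim
      · exact (hno.2.1 hz2.symm).elim
      · exact (hno.2.2 hz2.symm).elim
      · simp
    have h6 := Finset.card_le_card h5
    rw [h2, Finset.card_singleton] at h6
    omega

end SRG

section Grp

/-- Two subgroups of order `n` in a group of order `2 n`, the second simple, coincide. -/
theorem index_two_eq' {A : Type*} [Group A] [Finite A] (G₁ G₂ : Subgroup A) (n : ℕ) (hA : Nat.card A = 2 * n)
    (h1 : Nat.card G₁ = n) (h2 : Nat.card G₂ = n) (hn : 2 < n) (hs : IsSimpleGroup G₂) : G₁ = G₂ := by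
  have hidx : G₁.index = 2 := by
    have h3 := G₁.card_mul_index
    rw [h1, hA] at h3
    have h4 : n * G₁.index = n * 2 := by rw [h3]; ring
    exact Nat.eq_of_mul_eq_mul_left (by omega) h4
  haveI hnorm : G₁.Normal := Subgroup.normal_of_index_eq_two hidx
  have hN : (G₁.subgroupOf G₂).Normal := inferInstance
  rcases hs.eq_bot_or_eq_top_of_normal _ hN with h | h
  · exfalso
    let q : G₂ →* A ⧸ G₁ := (QuotientGroup.mk' G₁).comp G₂.subtype
    have hinj : Function.Injective q := by
      rw [← MonoidHom.ker_eq_bot_iff]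
      rw [eq_bot_iff]
      intro x hx
      have hx' : ((x : A) : A ⧸ G₁) = 1 := hx
      rw [QuotientGroup.eq_one_iff] at hx'
      have : x ∈ G₁.subgroupOf G₂ := Subgroup.mem_subgroupOf.2 hx'
      rw [h] at this
      exact this
    have h5 := Nat.card_le_card_of_injective q hinj
    rw [h2, show Nat.card (A ⧸ G₁) = G₁.index from rfl, hidx] at h5
    omega
  · have hle : G₂ ≤ G₁ := Subgroup.subgroupOf_eq_top.1 h
    exact (Subgroup.eq_of_le_of_card_ge hle (by rw [h1, h2])).symm

/-- Two subgroups of order `n` of a group of order at most `2 n`, the second simple, coincide. -/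
theorem eq_of_le_two {A : Type*} [Group A] [Finite A] (B G₁ G₂ : Subgroup A) (h1 : G₁ ≤ B) (h2 : G₂ ≤ B) (n : ℕ)
    (hB : Nat.card B ≤ 2 * n) (c1 : Nat.card G₁ = n) (c2 : Nat.card G₂ = n) (hn : 2 < n)
    (hs : IsSimpleGroup G₂) : G₁ = G₂ := by
  have hd : n ∣ Nat.card B := c2 ▸ Subgroup.card_dvd_of_le h2
  obtain ⟨t, ht⟩ := hd
  have hpos : 0 < Nat.card B := Nat.card_pos
  have ht0 : t ≠ 0 := by
    rintro rfl
    omega
  have ht2 : t ≤ 2 := by
    rw [ht, mul_comm] at hB
    exact Nat.le_of_mul_le_mul_right hB (by omega)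
  have ht3 : t = 1 ∨ t = 2 := by omega
  rcases ht3 with rfl | rfl
  · rw [mul_one] at ht
    have e1 : G₁ = B := Subgroup.eq_of_le_of_card_ge h1 (by omega)
    have e2 : G₂ = B := Subgroup.eq_of_le_of_card_ge h2 (by omega)
    rw [e1, e2]
  · have e1 := Subgroup.subgroupOfEquivOfLe h1
    have e2 := Subgroup.subgroupOfEquivOfLe h2
    have hsi : IsSimpleGroup (G₂.subgroupOf B) := by
      haveI := hs
      exact e2.isSimpleGroup
    have := index_two_eq' (G₁.subgroupOf B) (G₂.subgroupOf B) n (by rw [ht]; ring)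
      (by rw [Nat.card_congr e1.toEquiv, c1]) (by rw [Nat.card_congr e2.toEquiv, c2]) hn hsi
    ext x
    constructor
    · intro hx
      have h3 : (⟨x, h1 hx⟩ : B) ∈ G₁.subgroupOf B := Subgroup.mem_subgroupOf.2 hx
      rw [this] at h3
      exact Subgroup.mem_subgroupOf.1 h3
    · intro hx
      have h3 : (⟨x, h2 hx⟩ : B) ∈ G₂.subgroupOf B := Subgroup.mem_subgroupOf.2 hx
      rw [← this] at h3
      exact Subgroup.mem_subgroupOf.1 h3

end Grp

section Orbital

open Cfsg.Agent.Lib.McLRank3.Abstract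

variable {H : Type*} [Group H] {Ω : Type*} [Fintype Ω] [MulAction H Ω]

theorem card_filter_smul [DecidableEq Ω] (P Q : Ω → Prop) [DecidablePred P] [DecidablePred Q] (g : H)
    (h : ∀ z, P (g • z) ↔ Q z) : (univ.filter P).card = (univ.filter Q).card := by
  symm
  refine Finset.card_bij (fun z _ => g • z) ?_ ?_ ?_
  · intro z hz
    simp only [mem_filter, mem_univ, true_and] at hz ⊢
    exact (h z).2 hz
  · intro z _ z' _ hzz
    exact MulAction.injective g hzz
  · intro z hz
    simp only [mem_filter, mem_univ, true_and] at hz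
    refine ⟨g⁻¹ • z, ?_, smul_inv_smul g z⟩
    simp only [mem_filter, mem_univ, true_and]
    rw [← h, smul_inv_smul]
    exact hz

theorem exists_srg [DecidableEq Ω] [IsPretransitive H Ω] (hΩ : Fintype.card Ω = 275) (a b c : Ω)
    (hb : (orbit (stabilizer H a) b).ncard = 112) (hc : (orbit (stabilizer H a) c).ncard = 162) :
    ∃ (Γ : SimpleGraph Ω) (_ : DecidableRel Γ.Adj), Γ.IsSRGWith 275 112 30 56 ∧
      (∀ (g : H) (x y : Ω), Γ.Adj (g • x) (g • y) ↔ Γ.Adj x y) ∧
      (∀ y, Γ.Adj a y ↔ y ∈ orbit (stabilizer H a) b) ∧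
      (∀ y, y ≠ a → ¬ Γ.Adj a y → y ∈ orbit (stabilizer H a) c) ∧ c ≠ a ∧ ¬ Γ.Adj a c := by
  classical
  set S := stabilizer H a with hS
  set Δ := orbit S b with hΔ
  set Θ := orbit S c with hΘ
  have hsa : ∀ s : S, s • a = a := fun s => s.2
  -- the point is not in the other orbits
  have hno : ∀ z, (orbit S z).ncard ≠ 1 → a ∉ orbit S z := by
    rintro z hz ⟨s, hs⟩
    have hza : z = a := by
      have h1 : s⁻¹ • (s • z) = s⁻¹ • a := by
        congr 1
      rw [inv_smul_smul] at h1
      rw [h1]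
      exact hsa s⁻¹
    apply hz
    have h2 : orbit S z = {a} := by
      ext y
      rw [hza]
      constructor
      · rintro ⟨t, rfl⟩
        exact hsa t
      · intro hy
        rw [Set.mem_singleton_iff.1 hy]
        exact mem_orbit_self a
    rw [h2, Set.ncard_singleton]
  have haΔ : a ∉ Δ := hno b (by rw [hb]; norm_num)
  have haΘ : a ∉ Θ := hno c (by rw [hc]; norm_num)
  have hdisj : Disjoint Δ Θ := by
    rw [Set.disjoint_left]
    intro x hx hx'
    have h1 : orbit S x = Δ := orbit_eq_iff.2 hx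
    have h2 : orbit S x = Θ := orbit_eq_iff.2 hx'
    have h3 : (orbit S b).ncard = (orbit S c).ncard := by
      change Δ.ncard = Θ.ncard
      rw [← h1, ← h2]
    rw [hb, hc] at h3
    omega
  have hcover : ∀ z, z = a ∨ z ∈ Δ ∨ z ∈ Θ := by
    have h1 : (Δ ∪ Θ).ncard = 274 := by
      rw [Set.ncard_union_eq hdisj (Set.toFinite _) (Set.toFinite _), hb, hc]
    have h2 : (insert a (Δ ∪ Θ)).ncard = 275 := by
      rw [Set.ncard_insert_of_notMem (by simp [haΔ, haΘ]) (Set.toFinite _), h1]
    have h3 : insert a (Δ ∪ Θ) = Set.univ := by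
      refine Set.eq_of_subset_of_ncard_le (Set.subset_univ _) ?_ (Set.toFinite _)
      rw [h2, Set.ncard_univ, Nat.card_eq_fintype_card, hΩ]
    intro z
    have h4 : z ∈ insert a (Δ ∪ Θ) := by rw [h3]; trivial
    simpa using h4
  have hΔinv : ∀ s : H, s ∈ S → ∀ z ∈ Δ, s • z ∈ Δ := by
    rintro s hs _ ⟨t, rfl⟩
    exact ⟨⟨s, hs⟩ * t, mul_smul (⟨s, hs⟩ : S) t b⟩
  -- the relation
  let R : Ω → Ω → Prop := fun x y => ∃ g : H, g • a = x ∧ g⁻¹ • y ∈ Δ
  have R_smul : ∀ (h : H) (x y : Ω), R x y → R (h • x) (h • y) := by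
    rintro h x y ⟨g, hg, hy⟩
    refine ⟨h * g, by rw [mul_smul, hg], ?_⟩
    rw [mul_inv_rev, mul_smul, inv_smul_smul]
    exact hy
  have R_iff : ∀ (h : H) (x y : Ω), R (h • x) (h • y) ↔ R x y := by
    intro h x y
    refine ⟨fun hR => ?_, R_smul h x y⟩
    have := R_smul h⁻¹ _ _ hR
    rwa [inv_smul_smul, inv_smul_smul] at this
  have R_a : ∀ y, R a y ↔ y ∈ Δ := by
    intro y
    constructor
    · rintro ⟨g, hg, hy⟩
      have hgS : g ∈ S := hg
      have := hΔinv g hgS _ hy
      rwa [smul_inv_smul] at this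
    · intro hy
      exact ⟨1, one_smul _ _, by simpa using hy⟩
  -- counting the paired orbital
  have hA : ∀ x, (univ.filter (fun y => R x y)).card = 112 := by
    intro x
    obtain ⟨g, rfl⟩ := exists_smul_eq H a x
    rw [card_filter_smul (fun y => R (g • a) y) (fun y => R a y) g (fun z => R_iff g a z), ← hb,
      Set.ncard_eq_toFinset_card']
    congr 1
    ext y
    simp [R_a]
  have hB0 : ∀ y, (univ.filter (fun x => R x y)).card = (univ.filter (fun x => R x a)).card := by
    intro y
    obtain ⟨g, rfl⟩ := exists_smul_eq H a y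
    exact card_filter_smul (fun x => R x (g • a)) (fun x => R x a) g (fun z => R_iff g z a)
  have hB : (univ.filter (fun x => R x a)).card = 112 := by
    have h1 := Finset.sum_card_bipartiteAbove_eq_sum_card_bipartiteBelow (s := (univ : Finset Ω)) (t := (univ : Finset Ω)) R
    simp only [Finset.bipartiteAbove, Finset.bipartiteBelow, hA, hB0, Finset.sum_const, Finset.card_univ, hΩ] at h1
    simp only [smul_eq_mul] at h1
    omega
  have hsub : ∀ x, R x a → x ∈ Δ := by
    intro x hx
    rcases hcover x with rfl | h | h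
    · exact (R_a _).1 hx
    · exact h
    · exfalso
      have h1 : orbit S x = Θ := orbit_eq_iff.2 h
      have h2 : Θ.toFinset ⊆ univ.filter (fun x => R x a) := by
        intro z hz
        simp only [Set.mem_toFinset] at hz
        rw [← h1] at hz
        obtain ⟨s, rfl⟩ := hz
        simp only [mem_filter, mem_univ, true_and]
        have := R_smul s.1 x a hx
        rwa [show s.1 • a = a from hsa s] at this
      have h3 := Finset.card_le_card h2
      rw [hB, ← Set.ncard_eq_toFinset_card', hc] at h3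
      omega
  have hsup : ∀ x, x ∈ Δ → R x a := by
    have h1 : univ.filter (fun x => R x a) ⊆ Δ.toFinset := by
      intro x hx
      simp only [mem_filter, mem_univ, true_and] at hx
      simpa using hsub x hx
    have h2 : univ.filter (fun x => R x a) = Δ.toFinset := by
      refine Finset.eq_of_subset_of_card_le h1 ?_
      rw [hB, ← Set.ncard_eq_toFinset_card', hb]
    intro x hx
    have h3 : x ∈ univ.filter (fun x => R x a) := by
      rw [h2]
      simpa using hx
    simpa using h3
  have R_symm : ∀ x y, R x y → R y x := by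
    rintro x y ⟨g, rfl, hy⟩
    have := R_smul g _ _ (hsup _ hy)
    rwa [smul_inv_smul] at this
  have R_irrefl : ∀ x, ¬ R x x := by
    rintro x ⟨g, rfl, hy⟩
    rw [inv_smul_smul] at hy
    exact haΔ hy
  let Γ : SimpleGraph Ω := { Adj := R, symm := ⟨R_symm⟩, loopless := ⟨R_irrefl⟩ }
  letI inst : DecidableRel Γ.Adj := Classical.decRel _
  have hinv : ∀ (g : H) (x y : Ω), Γ.Adj (g • x) (g • y) ↔ Γ.Adj x y := R_iff
  have hbΔ0 : ∀ y, Γ.Adj a y ↔ y ∈ Δ := R_a
  have hcov' : ∀ y, y ≠ a → ¬ Γ.Adj a y → y ∈ orbit (stabilizer H a) c := by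
    intro y hya hn
    rcases hcover y with h | h | h
    · exact (hya h).elim
    · exact (hn ((hbΔ0 y).2 h)).elim
    · exact h
  have hca : c ≠ a := by
    intro h
    apply haΘ
    rw [← h]
    exact mem_orbit_self c
  have hnac : ¬ Γ.Adj a c := by
    intro h
    have h1 := (hbΔ0 c).1 h
    exact Set.disjoint_left.1 hdisj h1 (mem_orbit_self c)
  refine ⟨Γ, inst, ?_, hinv, hbΔ0, hcov', hca, hnac⟩
  have hcommon : ∀ (g : H) (x y : Ω), Fintype.card (Γ.commonNeighbors (g • x) (g • y)) =
      Fintype.card (Γ.commonNeighbors x y) := by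
    intro g x y
    symm
    refine Fintype.card_congr (Equiv.subtypeEquiv (MulAction.toPerm g) ?_)
    intro z
    simp only [SimpleGraph.mem_commonNeighbors, MulAction.toPerm_apply]
    rw [hinv, hinv]
  have hreg : Γ.IsRegularOfDegree 112 := by
    intro v
    rw [← SimpleGraph.card_neighborFinset_eq_degree, SimpleGraph.neighborFinset_eq_filter, ← hA v]
  have hbΔ : b ∈ Δ := mem_orbit_self b
  have hcΘ : c ∈ Θ := mem_orbit_self c
  have hsrg : Γ.IsSRGWith 275 112 (Fintype.card (Γ.commonNeighbors a b))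
      (Fintype.card (Γ.commonNeighbors a c)) := by
    refine ⟨hΩ, hreg, ?_, ?_⟩
    · rintro v w ⟨g, rfl, hy⟩
      obtain ⟨s, hs⟩ := hy
      have h1 : w = (g * s.1) • b := by
        rw [mul_smul]
        have hs' : s • b = g⁻¹ • w := hs
        change w = g • (s • b)
        rw [hs', smul_inv_smul]
      have h2 : g • a = (g * s.1) • a := by
        rw [mul_smul, show s.1 • a = a from hsa s]
      rw [h1, h2, hcommon]
    · intro v w hvw hn
      obtain ⟨g, rfl⟩ := exists_smul_eq H a v
      set z := g⁻¹ • w with hz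
      have hw : w = g • z := by rw [hz, smul_inv_smul]
      have hza : z ≠ a := by
        intro h
        apply hvw
        rw [hw, h]
      have hzΔ : z ∉ Δ := by
        intro h
        apply hn
        exact ⟨g, rfl, h⟩
      have hzΘ : z ∈ Θ := by
        rcases hcover z with h | h | h
        · exact (hza h).elim
        · exact (hzΔ h).elim
        · exact h
      obtain ⟨s, hs⟩ := hzΘ
      have h1 : w = (g * s.1) • c := by
        rw [mul_smul, hw]
        congr 1
        exact hs.symm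
      have h2 : g • a = (g * s.1) • a := by
        rw [mul_smul, show s.1 • a = a from hsa s]
      rw [h1, h2, hcommon]
  have hp := params hsrg
  rw [hp.1, hp.2] at hsrg
  exact hsrg



end Orbital

end Cfsg.Agent.Lib.McLRank3.Abstract
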