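import Mathlib
import Cfsg.Agent.Lib.McLRank3.Comp

/-!
# The classification of the solutions of the search
-/

set_option autoImplicit false

namespace Cfsg.Agent.Lib.McLRank3.Comp2

open Cfsg.Agent.Lib.Compute.PermCert Cfsg.Agent.Lib.McLRank3.Data Cfsg.Agent.Lib.McLRank3.Comp

/-- The neighbours in the first orbit of a point. -/
def sM (z : Nat) : Nat := Nat.land (rowN z) Y1M

/-- Existence in a range. -/
def anyB (f : Nat → Bool) : Nat → Bool
  | 0 => false
  | n + 1 => f n || anyB f n

theorem anyB_iff (f : Nat → Bool) (n : Nat) : anyB f n = true → ∃ i, i < n ∧ f i = true := by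
  induction n with
  | zero => simp [anyB]
  | succ n ih =>
    simp only [anyB, Bool.or_eq_true]
    rintro (h | h)
    · exact ⟨n, Nat.lt_succ_self n, h⟩
    · obtain ⟨i, hi, h'⟩ := ih h
      exact ⟨i, Nat.lt_succ_of_lt hi, h'⟩

/-- The image of a mask. -/
def imgA (e : Elt) (m : Nat) : Nat :=
  (List.range 275).foldl (fun acc y => cond (bit m y) (Nat.lor acc (Nat.pow 2 (get 9 511 e.f y))) acc) 0

/-- The mask is the neighbourhood of a point of the second orbit. -/
def inO0 (m : Nat) : Bool := anyB (fun z => bit Y2M z && Nat.beq m (sM z)) 275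

/-- The mask is, up to a twist, the neighbourhood of a point of the second orbit. -/
def goodB (m : Nat) : Bool := inO0 m || inO0 (imgA aE1 m) || inO0 (imgA aE2 m) || inO0 (imgA aE3 m)

theorem dfs_good : (dfs2 ordL 0 0 0 0 0).all goodB = true := by decide +kernel

end Cfsg.Agent.Lib.McLRank3.Comp2
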