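import Mathlib
import Cfsg.Agent.Lib.McLRank3.Abstract
import Cfsg.Agent.Lib.McLRank3.Check

/-!
# The rank 3 recognition of the McLaughlin group: the concrete point stabiliser on 275 points

The facts on the concrete group `P`, the point stabiliser in the concrete McLaughlin group on 275 points.
-/

set_option autoImplicit false
set_option maxRecDepth 100000

namespace Cfsg.Agent.Lib.McLRank3.Main

open Cfsg Cfsg.Agent.Lib.Compute.PermCert Cfsg.Agent.Lib.McLRank3.Data Cfsg.Agent.Lib.McLRank3.Comp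
  Cfsg.Agent.Lib.McLRank3.Comp2 Cfsg.Agent.Lib.McLRank3.Check Cfsg.Agent.Lib.McLRank3.Abstract
  Cfsg.Agent.Lib.Compute.OutChain Cfsg.Agent.Lib.Compute.OutFinal
  Cfsg.Agent.Lib.Sporadic.LeechBasic
  Cfsg.Agent.Lib.Sporadic.LeechMcLData Cfsg.Agent.Lib.Sporadic.LeechMcL
  Cfsg.Agent.Lib.Sporadic.LeechRep Cfsg.Agent.Lib.Sporadic.LeechGroups
  Cfsg.Agent.Lib.Sporadic.McLOut.Data Cfsg.Agent.Lib.Sporadic.McLOut.Check Cfsg.Agent.Lib.Sporadic.McLOut.Main
  MulAction Finset

open Cfsg.Agent.Lib.Sporadic.LeechEnum (StabL)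

/-- The point stabiliser. -/
abbrev PP : Subgroup (Equiv.Perm (Fin 275)) := Cfsg.Agent.S1582.P

theorem mem_PP {e : Elt} (h : inP e = true) : permOf 9 511 275 e ∈ PP := by
  simp only [inP, Bool.and_eq_true] at h
  obtain ⟨⟨hv, hs⟩, hf⟩ := h
  show _ ∈ Cfsg.Agent.S1582.P
  rw [Cfsg.Agent.S1582.P_eq]
  have h1 : permOf 9 511 275 e ∈ K := hA.mem_of_sift hd (gt_eq hv) hs
  obtain ⟨g, hg⟩ := h1
  have h2 := rep_spec hN X275_len X275_nodup X275_mem_lat (StabL FM) hpres g (0 : Fin 275)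
  have h3 : (rep hN X275_len X275_nodup X275_mem_lat (StabL FM) hpres g (0 : Fin 275)) = 0 := by
    apply Fin.ext
    show ((phi g (0 : Fin 275) : Fin 275) : ℕ) = 0
    rw [hg, ← gt_eq hv (0 : Fin 275)]
    exact Nat.eq_of_beq_eq_true hf
  rw [h3, Cfsg.Agent.S1582.ptOf_zero] at h2
  have h4 : (g : Co0) • x0El = x0El := h2.symm
  exact ⟨⟨g.1, mem_FU.2 ⟨(mem_FM.1 g.2).1, (mem_FM.1 g.2).2, h4⟩⟩, hg⟩

theorem PP_le_K : PP ≤ K := by
  show Cfsg.Agent.S1582.P ≤ K
  rw [Cfsg.Agent.S1582.P_eq]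
  rintro _ ⟨g, rfl⟩
  exact ⟨Subgroup.inclusion Cfsg.Agent.S1582.hle g, rfl⟩

theorem K_le_Aut : K ≤ AutG := by
  rw [← hA.gen_eq]
  refine (Subgroup.closure_le _).2 ?_
  rintro _ ⟨e, he, rfl⟩
  have he' : e ∈ [eG0, eG1, eG2, eG3] := he
  have hv := val_of he'
  have h1 := List.all_eq_true.1 gens_pres e he'
  intro x y
  have h2 := (allB_iff _ _).1 h1 x x.2
  have h3 := (allB_iff _ _).1 h2 y y.2
  rw [beq_iff_eq] at h3
  rw [permOf_apply hv, permOf_apply hv]
  exact h3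

theorem PP_le_Aut : PP ≤ AutG := PP_le_K.trans K_le_Aut

theorem PP_fix0 {p : Equiv.Perm (Fin 275)} (hp : p ∈ PP) : p 0 = 0 := by
  have hle : PP ≤ stabilizer (Equiv.Perm (Fin 275)) (0 : Fin 275) := by
    refine (Subgroup.closure_le _).2 ?_
    rintro _ ⟨e, he, rfl⟩
    have hv := List.all_eq_true.1 Cfsg.Agent.S1582.validEs e he
    have hf := List.all_eq_true.1 Cfsg.Agent.S1582.fixEs e he
    apply Fin.ext
    show ((permOf 9 511 275 e (0 : Fin 275) : Fin 275) : ℕ) = 0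
    rw [← gt_eq hv (0 : Fin 275)]
    exact Nat.eq_of_beq_eq_true hf
  exact hle hp

theorem adj_eq {p : Equiv.Perm (Fin 275)} (hp : p ∈ PP) (x y : Fin 275) : adjN (p x) (p y) = adjN x y :=
  PP_le_Aut hp x y

theorem Y1_inv {p : Equiv.Perm (Fin 275)} (hp : p ∈ PP) (y : Fin 275) : adjN 0 (p y) = adjN 0 y := by
  have h := adj_eq hp 0 y
  rw [PP_fix0 hp] at h
  exact h

theorem Y2_inv {p : Equiv.Perm (Fin 275)} (hp : p ∈ PP) (z : Fin 275) :
    (p z ≠ 0 ∧ adjN 0 (p z) = false) ↔ (z ≠ 0 ∧ adjN 0 z = false) := by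
  rw [Y1_inv hp]
  have h1 : p z ≠ 0 ↔ z ≠ 0 := by
    apply not_congr
    constructor
    · intro h
      apply p.injective
      rw [h, PP_fix0 hp]
    · rintro rfl
      exact PP_fix0 hp
  rw [h1]

theorem adj_comm' (x y : Fin 275) : adjN x y = adjN y x := by
  have h1 := (allB_iff _ _).1 adj_symm x x.2
  have h2 := (allB_iff _ _).1 h1 y y.2
  exact beq_iff_eq.1 h2

theorem adj_self (x : Fin 275) : adjN x x = false := by
  have h1 := (allB_iff _ _).1 adj_irr x x.2
  simpa using h1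

theorem es_valid : ∀ e ∈ Cfsg.Agent.S1582.es, validB 9 511 275 e = true :=
  fun e he => List.all_eq_true.1 Cfsg.Agent.S1582.validEs e he

theorem es_mem : ∀ e ∈ Cfsg.Agent.S1582.es, permOf 9 511 275 e ∈ PP :=
  fun _ he => permOf_mem_genGroup he

theorem fo_y0 : ((fo y0 : Fin 275) : ℕ) = y0 := fo_val pts_ok.1
theorem fo_z0 : ((fo z0 : Fin 275) : ℕ) = z0 := fo_val pts_ok.2.1
theorem fo_y1 : ((fo y1 : Fin 275) : ℕ) = y1 := fo_val pts_ok.2.2.1
theorem fo_y2 : ((fo y2 : Fin 275) : ℕ) = y2 := fo_val pts_ok.2.2.2.1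
theorem fo_z1 : ((fo z1 : Fin 275) : ℕ) = z1 := fo_val pts_ok.2.2.2.2.1
theorem fo_z2 : ((fo z2 : Fin 275) : ℕ) = z2 := fo_val pts_ok.2.2.2.2.2

theorem tr1 (y : Fin 275) (hy : adjN 0 y = true) : ∃ q ∈ PP, q (fo y0) = y := by
  refine exists_of_close PP _ es_valid es_mem (fo y0) 12 Y1M (by rw [fo_y0]; exact close_Y1) y ?_
  have h := beq_iff_eq.1 ((allB_iff _ _).1 mask_Y1 y y.2)
  rw [h, hy]

theorem tr2 (z : Fin 275) (hz : z ≠ 0) (hz' : adjN 0 z = false) : ∃ q ∈ PP, q (fo z0) = z := by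
  refine exists_of_close PP _ es_valid es_mem (fo z0) 12 Y2M (by rw [fo_z0]; exact close_Y2) z ?_
  have h := beq_iff_eq.1 ((allB_iff _ _).1 mask_Y2 z z.2)
  have h0 : Nat.beq (z : ℕ) 0 = false := by
    rw [beq_false_iff]  
    exact fun e => hz (Fin.ext e)
  rw [h, hz', h0]
  rfl

/-- The stabiliser of a point in `P`. -/
abbrev Qt (x : Fin 275) : Subgroup (Equiv.Perm (Fin 275)) := PP ⊓ stabilizer (Equiv.Perm (Fin 275)) x

theorem gy_in : (∀ e ∈ gyL, validB 9 511 275 e = true) ∧ ∀ e ∈ gyL, permOf 9 511 275 e ∈ Qt (fo y0) := by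
  have h : ∀ e ∈ gyL, inP e = true ∧ Nat.beq (gt 9 511 e y0) y0 = true := by
    intro e he
    have := List.all_eq_true.1 gy_ok e he
    simpa only [Bool.and_eq_true] using this
  have hv : ∀ e ∈ gyL, validB 9 511 275 e = true := by
    intro e he
    have := (h e he).1
    simp only [inP, Bool.and_eq_true] at this
    exact this.1.1
  refine ⟨hv, fun e he => ⟨mem_PP (h e he).1, ?_⟩⟩
  show permOf 9 511 275 e (fo y0) = fo y0
  apply Fin.ext
  rw [← gt_eq (hv e he), fo_y0]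
  exact Nat.eq_of_beq_eq_true (h e he).2

theorem gz_in : (∀ e ∈ gzL, validB 9 511 275 e = true) ∧ ∀ e ∈ gzL, permOf 9 511 275 e ∈ Qt (fo z0) := by
  have h : ∀ e ∈ gzL, inP e = true ∧ Nat.beq (gt 9 511 e z0) z0 = true := by
    intro e he
    have := List.all_eq_true.1 gz_ok e he
    simpa only [Bool.and_eq_true] using this
  have hv : ∀ e ∈ gzL, validB 9 511 275 e = true := by
    intro e he
    have := (h e he).1
    simp only [inP, Bool.and_eq_true] at this
    exact this.1.1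
  refine ⟨hv, fun e he => ⟨mem_PP (h e he).1, ?_⟩⟩
  show permOf 9 511 275 e (fo z0) = fo z0
  apply Fin.ext
  rw [← gt_eq (hv e he), fo_z0]
  exact Nat.eq_of_beq_eq_true (h e he).2

theorem tr30 (y : Fin 275) (h1 : adjN 0 y = true) (h2 : adjN (fo y0) y = true) : ∃ q ∈ Qt (fo y0), q (fo y1) = y := by
  refine exists_of_close _ _ gy_in.1 gy_in.2 (fo y1) 12 M30 (by rw [fo_y1]; exact close_30) y ?_
  have h := beq_iff_eq.1 ((allB_iff _ _).1 mask_30 y y.2)
  rw [fo_y0] at h2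
  rw [h, h1, h2]
  rfl

theorem tr81 (y : Fin 275) (h1 : adjN 0 y = true) (h2 : y ≠ fo y0) (h3 : adjN (fo y0) y = false) :
    ∃ q ∈ Qt (fo y0), q (fo y2) = y := by
  refine exists_of_close _ _ gy_in.1 gy_in.2 (fo y2) 12 M81 (by rw [fo_y2]; exact close_81) y ?_
  have h := beq_iff_eq.1 ((allB_iff _ _).1 mask_81 y y.2)
  rw [fo_y0] at h3
  have h0 : Nat.beq (y : ℕ) y0 = false := by
    rw [beq_false_iff]
    intro e
    apply h2
    apply Fin.ext
    rw [fo_y0, e]
  rw [h, h1, h3, h0]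
  rfl

theorem tr56 (y : Fin 275) (h0 : y ≠ 0) (h1 : adjN 0 y = false) (h2 : adjN (fo z0) y = true) :
    ∃ q ∈ Qt (fo z0), q (fo z1) = y := by
  refine exists_of_close _ _ gz_in.1 gz_in.2 (fo z1) 12 M56 (by rw [fo_z1]; exact close_56) y ?_
  have h := beq_iff_eq.1 ((allB_iff _ _).1 mask_56 y y.2)
  have h00 : Nat.beq (y : ℕ) 0 = false := by
    rw [beq_false_iff]
    exact fun e => h0 (Fin.ext e)
  rw [fo_z0] at h2
  rw [h, h1, h2, h00]
  rfl

theorem tr105 (y : Fin 275) (h0 : y ≠ 0) (h1 : adjN 0 y = false) (h2 : y ≠ fo z0) (h3 : adjN (fo z0) y = false) :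
    ∃ q ∈ Qt (fo z0), q (fo z2) = y := by
  refine exists_of_close _ _ gz_in.1 gz_in.2 (fo z2) 12 M105 (by rw [fo_z2]; exact close_105) y ?_
  have h := beq_iff_eq.1 ((allB_iff _ _).1 mask_105 y y.2)
  have h00 : Nat.beq (y : ℕ) 0 = false := by
    rw [beq_false_iff]
    exact fun e => h0 (Fin.ext e)
  have h01 : Nat.beq (y : ℕ) z0 = false := by
    rw [beq_false_iff]
    intro e
    apply h2
    apply Fin.ext
    rw [fo_z0, e]
  rw [fo_z0] at h3
  rw [h, h1, h3, h00, h01]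
  rfl

/-- The relation on an orbit invariant under `P`, with the right valency, is the adjacency of the graph. -/
theorem pin (W : Fin 275 → Prop) [DecidablePred W] (x0 x1 x2 : Fin 275) (rel : Fin 275 → Fin 275 → Prop)
    [DecidableRel rel] (n : ℕ)
    (hinv : ∀ p ∈ PP, ∀ x x', W x → W x' → (rel (p x) (p x') ↔ rel x x'))
    (hW : ∀ p ∈ PP, ∀ x, W (p x) ↔ W x)
    (htr : ∀ x, W x → ∃ p ∈ PP, p x0 = x)
    (hx0 : W x0) (hirr : ¬ rel x0 x0)
    (hx1 : W x1 ∧ adjN x0 x1 = true) (hx2 : W x2 ∧ x2 ≠ x0 ∧ adjN x0 x2 = false)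
    (hq1 : ∀ x, W x → adjN x0 x = true → ∃ q ∈ Qt x0, q x1 = x)
    (hq2 : ∀ x, W x → x ≠ x0 → adjN x0 x = false → ∃ q ∈ Qt x0, q x2 = x)
    (hn1 : (univ.filter fun x => W x ∧ adjN x0 x = true).card = n)
    (hn2 : (univ.filter fun x => W x ∧ x ≠ x0 ∧ adjN x0 x = false).card ≠ n) (hn0 : n ≠ 0)
    (hc : (univ.filter fun x => W x ∧ rel x0 x).card = n) :
    ∀ x x', W x → W x' → (rel x x' ↔ adjN x x' = true) := by
  have c1 : ∀ x, W x → adjN x0 x = true → (rel x0 x ↔ rel x0 x1) := by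
    intro x hx ha
    obtain ⟨q, hq, rfl⟩ := hq1 x hx ha
    have := hinv q hq.1 x0 x1 hx0 hx1.1
    rw [show q x0 = x0 from hq.2] at this
    exact this
  have c2 : ∀ x, W x → x ≠ x0 → adjN x0 x = false → (rel x0 x ↔ rel x0 x2) := by
    intro x hx hne ha
    obtain ⟨q, hq, rfl⟩ := hq2 x hx hne ha
    have := hinv q hq.1 x0 x2 hx0 hx2.1
    rw [show q x0 = x0 from hq.2] at this
    exact this
  have base : ∀ x, W x → (rel x0 x ↔ adjN x0 x = true) := by
    by_cases r1 : rel x0 x1 <;> by_cases r2 : rel x0 x2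
    · exfalso
      have hsub : (univ.filter fun x => W x ∧ adjN x0 x = true) ⊂ (univ.filter fun x => W x ∧ rel x0 x) := by
        rw [Finset.ssubset_iff_of_subset]
        · refine ⟨x2, ?_, ?_⟩
          · simp only [mem_filter, mem_univ, true_and]
            exact ⟨hx2.1, r2⟩
          · simp only [mem_filter, mem_univ, true_and, not_and]
            intro _
            rw [hx2.2.2]
            simp
        · intro x hx
          simp only [mem_filter, mem_univ, true_and] at hx ⊢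
          exact ⟨hx.1, (c1 x hx.1 hx.2).2 r1⟩
      have := Finset.card_lt_card hsub
      omega
    · intro x hx
      by_cases ha : adjN x0 x = true
      · simp only [ha, iff_true]
        exact (c1 x hx ha).2 r1
      · have ha' : adjN x0 x = false := by simpa using ha
        rw [ha']
        refine ⟨fun hr => ?_, fun h => absurd h (by simp)⟩
        exfalso
        by_cases hne : x = x0
        · rw [hne] at hr
          exact hirr hr
        · exact r2 ((c2 x hx hne ha').1 hr)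
    · exfalso
      apply hn2
      rw [← hc]
      congr 1
      ext x
      simp only [mem_filter, mem_univ, true_and]
      constructor
      · rintro ⟨h1, h2, h3⟩
        exact ⟨h1, (c2 x h1 h2 h3).2 r2⟩
      · rintro ⟨h1, h2⟩
        refine ⟨h1, ?_, ?_⟩
        · rintro rfl
          exact hirr h2
        · by_contra h3
          exact r1 ((c1 x h1 (by simpa using h3)).1 h2)
    · exfalso
      apply hn0
      rw [← hc, Finset.card_eq_zero, Finset.filter_eq_empty_iff]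
      rintro x - ⟨h1, h2⟩
      by_cases ha : adjN x0 x = true
      · exact r1 ((c1 x h1 ha).1 h2)
      · by_cases hne : x = x0
        · rw [hne] at h2
          exact hirr h2
        · exact r2 ((c2 x h1 hne (by simpa using ha)).1 h2)
  intro x x' hx hx'
  obtain ⟨p, hp, rfl⟩ := htr x hx
  have hu : W (p⁻¹ x') := by
    rw [← hW p hp]
    simpa using hx'
  have h1 := hinv p hp x0 (p⁻¹ x') hx0 hu
  have h2 := adj_eq hp x0 (p⁻¹ x')
  have e : p (p⁻¹ x') = x' := by simp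
  rw [e] at h1 h2
  rw [h1, base _ hu, h2]

/-! ### The bound on the automorphism group -/

theorem card_AutG_le : Nat.card AutG ≤ 1796256000 := by
  have h0 := Fx_step [] (by simp) 0 (by norm_num)
  have h1 := Fx_step [0] (by simp) 22 (by norm_num)
  have h2 := Fx_step [22, 0] (by simp) 23 (by norm_num)
  have h3 := Fx_step [23, 22, 0] (by simp) 270 (by norm_num)
  have h4 := Fx_step [270, 23, 22, 0] (by simp) 1 (by norm_num)
  have h5 := Fx_step [1, 270, 23, 22, 0] (by simp) 194 (by norm_num)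
  have h6 := Fx_step [194, 1, 270, 23, 22, 0] (by simp) 3 (by norm_num)
  have h7 := Fx_step [3, 194, 1, 270, 23, 22, 0] (by simp) 20 (by norm_num)
  have hb : Fx [20, 3, 194, 1, 270, 23, 22, 0] = ⊥ := Fx_eq_bot _ clL (by simp) cl_ok cl_all
  have hc : Nat.card (Fx [20, 3, 194, 1, 270, 23, 22, 0]) = 1 := by
    rw [hb]
    simp
  obtain ⟨c0, c1, c2, c3, c4, c5, c6, c7⟩ := cell_cards
  rw [c0] at h0
  rw [c1] at h1
  rw [c2] at h2
  rw [c3] at h3
  rw [c4] at h4
  rw [c5] at h5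
  rw [c6] at h6
  rw [c7] at h7
  show Nat.card (Fx []) ≤ _
  omega

end Cfsg.Agent.Lib.McLRank3.Main
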