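import Mathlib
import Cfsg.Agent.Lib.McLRank3.Main

/-!
# The rank 3 recognition of the McLaughlin group: identifying the neighbourhood of a point
-/

set_option autoImplicit false
set_option maxRecDepth 100000

namespace Cfsg.Agent.Lib.McLRank3.Twist

open Cfsg Cfsg.Agent.Lib.Compute.PermCert Cfsg.Agent.Lib.McLRank3.Data Cfsg.Agent.Lib.McLRank3.Comp
  Cfsg.Agent.Lib.McLRank3.Comp2 Cfsg.Agent.Lib.McLRank3.Check Cfsg.Agent.Lib.McLRank3.Abstract
  Cfsg.Agent.Lib.McLRank3.Main MulAction Finset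

variable {Ω : Type*} [Fintype Ω] [DecidableEq Ω] {G : Subgroup (Equiv.Perm Ω)} {a : Ω} {Γ : SimpleGraph Ω}
  [DecidableRel Γ.Adj]

theorem ap_inv (B : Equiv.Perm (Fin 275)) (y : Fin 275) : B (B⁻¹ y) = y := by simp

theorem inv_ap (B : Equiv.Perm (Fin 275)) (y : Fin 275) : B⁻¹ (B y) = y := by simp

/-- A map of the first orbit to the neighbours of `a`, compatible with the graph and the groups. -/
structure Good (G : Subgroup (Equiv.Perm Ω)) (a : Ω) (Γ : SimpleGraph Ω) (β : Fin 275 → Ω) : Prop where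
  maps : ∀ y : Fin 275, adjN 0 y = true → Γ.Adj a (β y)
  inj : ∀ x y : Fin 275, adjN 0 x = true → adjN 0 y = true → β x = β y → x = y
  adj : ∀ x y : Fin 275, adjN 0 x = true → adjN 0 y = true → (Γ.Adj (β x) (β y) ↔ adjN x y = true)
  equi : ∀ p ∈ PP, ∃ g : G, g • a = a ∧ ∀ y : Fin 275, adjN 0 y = true → β (p y) = g • β y

/-! ### The first orbit -/

/-- The first orbit of `P`, as a set with an action. -/
def Y1Sub : SubMulAction PP (Fin 275) where
  carrier := {y | adjN 0 y = true}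
  smul_mem' := by
    intro p y hy
    show adjN 0 (p.1 y) = true
    rw [Y1_inv p.2]
    exact hy

theorem smul_val (p : PP) (x : Y1Sub) : ((p • x : Y1Sub) : Fin 275) = p.1 x.1 := rfl

theorem card_Y1Sub : Nat.card Y1Sub = 112 := by
  rw [← card_Y1]
  exact Nat.subtype_card _ (fun x => by simp; rfl)

theorem tr_sub (x x' : Y1Sub) : ∃ p : PP, p • x = x' := by
  obtain ⟨q, hq, e⟩ := tr1 x.1 x.2
  obtain ⟨q', hq', e'⟩ := tr1 x'.1 x'.2
  refine ⟨⟨q' * q⁻¹, PP.mul_mem hq' (PP.inv_mem hq)⟩, Subtype.ext ?_⟩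
  rw [smul_val]
  show (q' * q⁻¹) x.1 = x'.1
  rw [Equiv.Perm.mul_apply, ← e, ← e']
  simp

theorem card_PP : Nat.card PP = 3265920 := Cfsg.Agent.S1582.card_P

theorem card_stab (x : Y1Sub) : Nat.card (stabilizer PP x) = 29160 := by
  have h1 := index_stabilizer PP x
  have h2 := Subgroup.card_mul_index (stabilizer PP x)
  have h3 : orbit PP x = Set.univ := by
    ext w
    simp only [Set.mem_univ, iff_true]
    obtain ⟨p, hp⟩ := tr_sub x w
    exact ⟨p, hp⟩
  rw [h1, h3, Set.ncard_univ, card_Y1Sub, card_PP] at h2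
  omega

/-- The base point. -/
def x0 : Y1Sub := ⟨fo y0, by
  show adjN 0 (fo y0) = true
  rw [fo_y0]
  exact pts_adj.1⟩

theorem same_class {x1 : Fin 275} {u w : Y1Sub} (h1 : ∃ q ∈ Qt (fo y0), q x1 = u.1) (h2 : ∃ q ∈ Qt (fo y0), q x1 = w.1) :
    w ∈ orbit (stabilizer PP x0) u := by
  obtain ⟨q, hq, e⟩ := h1
  obtain ⟨q', hq', e'⟩ := h2
  have hr := (Qt (fo y0)).mul_mem hq' ((Qt (fo y0)).inv_mem hq)
  refine ⟨⟨⟨q' * q⁻¹, hr.1⟩, ?_⟩, ?_⟩
  · exact Subtype.ext hr.2
  · apply Subtype.ext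
    show (q' * q⁻¹) u.1 = w.1
    rw [Equiv.Perm.mul_apply, ← e, ← e']
    simp

theorem orbit_inv_adj {u : Y1Sub} (b : Bool) (h : adjN (fo y0) u.1 = b) (w : Y1Sub)
    (hw : w ∈ orbit (stabilizer PP x0) u) : adjN (fo y0) w.1 = b := by
  obtain ⟨q, rfl⟩ := hw
  have hq : q.1.1 (fo y0) = fo y0 := congrArg Subtype.val q.2
  have h1 := adj_eq q.1.2 (fo y0) u.1
  rw [hq, h] at h1
  exact h1

theorem at0A (u : Y1Sub) (h : adjN (fo y0) u.1 = true) :
    Nat.card ↥(stabilizer PP x0 ⊓ stabilizer PP u) ≤ 972 := by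
  have h1 := inf_stab_card (stabilizer PP x0) u
  rw [card_stab] at h1
  have h2 : (Subtype.val '' orbit (stabilizer PP x0) u) ⊇ ((univ.filter fun y : Fin 275 =>
      adjN 0 y = true ∧ adjN y0 y = true : Finset (Fin 275)) : Set (Fin 275)) := by
    intro y hy
    simp only [coe_filter, mem_univ, true_and, Set.mem_setOf_eq] at hy
    have hy2 : adjN (fo y0) y = true := by
      rw [fo_y0]
      exact hy.2
    refine ⟨⟨y, hy.1⟩, same_class (tr30 u.1 u.2 h) (tr30 y hy.1 hy2), rfl⟩
  have h3 := Set.ncard_le_ncard h2 (Set.toFinite _)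
  rw [Set.ncard_coe_finset, card_30, Set.ncard_image_of_injective _ Subtype.val_injective] at h3
  have h4 := Nat.mul_le_mul_left (Nat.card ↥(stabilizer PP x0 ⊓ stabilizer PP u)) h3
  omega

theorem at0N (u : Y1Sub) (hne : u ≠ x0) (h : adjN (fo y0) u.1 = false) :
    Nat.card ↥(stabilizer PP x0 ⊓ stabilizer PP u) = 360 := by
  have h1 := inf_stab_card (stabilizer PP x0) u
  rw [card_stab] at h1
  have hne' : u.1 ≠ fo y0 := fun e => hne (Subtype.ext e)
  have h2 : (Subtype.val '' orbit (stabilizer PP x0) u) = ((univ.filter fun y : Fin 275 =>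
      adjN 0 y = true ∧ (y : ℕ) ≠ y0 ∧ adjN y0 y = false : Finset (Fin 275)) : Set (Fin 275)) := by
    ext y
    simp only [coe_filter, mem_univ, true_and, Set.mem_setOf_eq, Set.mem_image]
    constructor
    · rintro ⟨w, hw, rfl⟩
      refine ⟨w.2, ?_, ?_⟩
      · intro e
        obtain ⟨q, rfl⟩ := hw
        apply hne'
        have hq : q.1.1 (fo y0) = fo y0 := congrArg Subtype.val q.2
        have e2 : q.1.1 u.1 = fo y0 := by
          apply Fin.ext
          rw [fo_y0]
          exact e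
        exact q.1.1.injective (e2.trans hq.symm)
      · have := orbit_inv_adj false h w hw
        rwa [fo_y0] at this
    · rintro ⟨h3, h4, h5⟩
      have hy2 : adjN (fo y0) y = false := by
        rw [fo_y0]
        exact h5
      have hy3 : y ≠ fo y0 := by
        rintro rfl
        exact h4 fo_y0
      exact ⟨⟨y, h3⟩, same_class (tr81 u.1 u.2 hne' h) (tr81 y h3 hy3 hy2), rfl⟩
  have h3 := congrArg Set.ncard h2
  rw [Set.ncard_coe_finset, card_81, Set.ncard_image_of_injective _ Subtype.val_injective] at h3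
  rw [h3] at h1
  omega

theorem adjSub_inv (p : PP) (x y : Y1Sub) : adjN (p • x : Y1Sub).1 (p • y : Y1Sub).1 = adjN x.1 y.1 :=
  adj_eq p.2 x.1 y.1

theorem x0_adj_of (x : Y1Sub) (p : PP) (hp : p • x0 = x) (y : Y1Sub) : adjN (fo y0) (p⁻¹ • y : Y1Sub).1 = adjN x.1 y.1 := by
  have h1 := adjSub_inv p x0 (p⁻¹ • y)
  rw [hp, smul_inv_smul] at h1
  exact h1.symm

/-- A subgroup of the order of a point stabiliser is a point stabiliser. -/
theorem exists_stab (H : Subgroup PP) (hH : Nat.card H = 29160) : ∃ x : Y1Sub, H = stabilizer PP x := by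
  refine exists_eq_stab (fun x y : Y1Sub => adjN x.1 y.1 = true) ?_ card_Y1Sub card_stab ?_ ?_ ?_ H hH
  · intro p x y
    show adjN (p • x : Y1Sub).1 (p • y : Y1Sub).1 = true ↔ _
    rw [adjSub_inv]
  · intro x y hne hn
    obtain ⟨p, hp⟩ := tr_sub x0 x
    have e := card_inf_smul p x0 (p⁻¹ • y)
    rw [hp, smul_inv_smul] at e
    rw [e]
    apply at0N
    · intro h
      apply hne
      have := congrArg (fun t => p • t) h
      simp only [smul_inv_smul] at this
      rw [this, hp]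
    · rw [x0_adj_of x p hp y]
      simpa using hn
  · intro x y ha
    obtain ⟨p, hp⟩ := tr_sub x0 x
    have e := card_inf_smul p x0 (p⁻¹ • y)
    rw [hp, smul_inv_smul] at e
    rw [e]
    apply at0A
    rw [x0_adj_of x p hp y]
    exact ha
  · intro x y ha s hs
    obtain ⟨p, hp⟩ := tr_sub x0 x
    have hu : adjN (fo y0) (p⁻¹ • y : Y1Sub).1 = true := by
      rw [x0_adj_of x p hp y]
      exact ha
    have hu' : adjN y0 (p⁻¹ • y : Y1Sub).1 = true := by
      rwa [fo_y0] at hu
    have h1 := card_cl (p⁻¹ • y : Y1Sub).1 (p⁻¹ • y : Y1Sub).2 hu'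
    have hinjm : Function.Injective (fun t : Y1Sub => ((p⁻¹ • t : Y1Sub) : Fin 275)) := by
      intro t t' e
      exact MulAction.injective p⁻¹ (Subtype.ext e)
    rw [← h1, ← Finset.card_image_of_injective s hinjm]
    apply Finset.card_le_card
    intro w hw
    obtain ⟨t, ht, rfl⟩ := Finset.mem_image.1 hw
    simp only [mem_filter, mem_univ, true_and]
    refine ⟨(p⁻¹ • t : Y1Sub).2, ?_, ?_⟩
    · have := x0_adj_of x p hp t
      rw [fo_y0] at this
      rw [this]
      exact (hs t ht).1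
    · have := adjSub_inv p⁻¹ y t
      rw [this]
      exact (hs t ht).2

/-! ### The map on the first orbit -/

variable (hΓ : Γ.IsSRGWith 275 112 30 56) (hinv : ∀ (g : G) (x y : Ω), Γ.Adj (g • x) (g • y) ↔ Γ.Adj x y)

include hΓ hinv in
theorem exists_good (θ : stabilizer G a ≃* PP) (b : Ω) (hb : (orbit (stabilizer G a) b).ncard = 112)
    (hab : ∀ y, Γ.Adj a y ↔ y ∈ orbit (stabilizer G a) b) : ∃ β, Good G a Γ β := by
  classical
  set S := stabilizer G a with hS
  have hsa : ∀ s : S, s • a = a := fun s => s.2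
  -- the stabiliser of the point `b`
  let H : Subgroup PP := (stabilizer S b).map θ.toMonoidHom
  have hcS : Nat.card S = 3265920 := by
    rw [Nat.card_congr θ.toEquiv, card_PP]
  have hH : Nat.card H = 29160 := by
    have h1 := index_stabilizer S b
    have h2 := Subgroup.card_mul_index (stabilizer S b)
    rw [h1, hb, hcS] at h2
    have h3 : Nat.card H = Nat.card (stabilizer S b) :=
      Subgroup.card_map_of_injective θ.injective
    omega
  obtain ⟨x, hx⟩ := exists_stab H hH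
  -- the key equivalence
  have key : ∀ p q : PP, p • x = q • x ↔ θ.symm p • b = θ.symm q • b := by
    intro p q
    have h1 : p • x = q • x ↔ p⁻¹ * q ∈ stabilizer PP x := by
      rw [mem_stabilizer_iff, mul_smul, inv_smul_eq_iff]
      exact eq_comm
    have h2 : θ.symm p • b = θ.symm q • b ↔ (θ.symm p)⁻¹ * θ.symm q ∈ stabilizer S b := by
      rw [mem_stabilizer_iff, mul_smul, inv_smul_eq_iff]
      exact eq_comm
    rw [h1, h2, ← hx]
    constructor
    · rintro ⟨s, hs, e⟩
      have e' : θ.symm (p⁻¹ * q) = s := by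
        rw [← e]
        exact θ.symm_apply_apply s
      rw [map_mul, map_inv] at e'
      rw [e']
      exact hs
    · intro h
      refine ⟨(θ.symm p)⁻¹ * θ.symm q, h, ?_⟩
      show θ ((θ.symm p)⁻¹ * θ.symm q) = p⁻¹ * q
      simp
  choose pick hpick using fun y : Y1Sub => tr_sub x y
  let β : Fin 275 → Ω := fun y => if h : adjN 0 y = true then θ.symm (pick ⟨y, h⟩) • b else a
  have hβ : ∀ (p : PP) (y : Y1Sub), p • x = y → β y.1 = θ.symm p • b := by
    intro p y hp
    have h1 : β y.1 = θ.symm (pick y) • b := dif_pos y.2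
    rw [h1]
    apply (key _ _).1
    rw [hpick, hp]
  have hsurj : ∀ u, Γ.Adj a u → ∃ y : Y1Sub, β y.1 = u := by
    intro u hu
    obtain ⟨s, rfl⟩ := (hab u).1 hu
    refine ⟨θ s • x, ?_⟩
    rw [hβ (θ s) _ rfl, θ.symm_apply_apply]
  have hmaps : ∀ y : Fin 275, adjN 0 y = true → Γ.Adj a (β y) := by
    intro y hy
    rw [hab]
    obtain ⟨p, hp⟩ := tr_sub x ⟨y, hy⟩
    rw [show β y = θ.symm p • b from hβ p ⟨y, hy⟩ hp]
    exact mem_orbit _ _
  have hinj : ∀ x' y : Fin 275, adjN 0 x' = true → adjN 0 y = true → β x' = β y → x' = y := by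
    intro x' y hx' hy e
    obtain ⟨p, hp⟩ := tr_sub x ⟨x', hx'⟩
    obtain ⟨q, hq⟩ := tr_sub x ⟨y, hy⟩
    rw [show β x' = θ.symm p • b from hβ p ⟨x', hx'⟩ hp, show β y = θ.symm q • b from hβ q ⟨y, hy⟩ hq] at e
    have := (key p q).2 e
    rw [hp, hq] at this
    exact congrArg Subtype.val this
  have hequi : ∀ p ∈ PP, ∃ g : G, g • a = a ∧ ∀ y : Fin 275, adjN 0 y = true → β (p y) = g • β y := by
    intro p hp
    refine ⟨(θ.symm ⟨p, hp⟩ : S).1, (θ.symm ⟨p, hp⟩ : S).2, ?_⟩
    intro y hy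
    obtain ⟨q, hq⟩ := tr_sub x ⟨y, hy⟩
    have h1 : β y = θ.symm q • b := hβ q ⟨y, hy⟩ hq
    have hpy : p y ∈ Y1Sub := show adjN 0 (p y) = true by
      rw [Y1_inv hp]
      exact hy
    have h2 : (⟨p, hp⟩ * q : PP) • x = ⟨p y, hpy⟩ := by
      rw [mul_smul, hq]
      rfl
    have h3 := hβ _ _ h2
    rw [show β (p y) = β (⟨p y, hpy⟩ : Y1Sub).1 from rfl, h3, map_mul, mul_smul, h1]
    rfl
  -- the adjacency
  have hadj : ∀ x' y : Fin 275, adjN 0 x' = true → adjN 0 y = true → (Γ.Adj (β x') (β y) ↔ adjN x' y = true) := by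
    have hb0 : adjN 0 (fo y0) = true := x0.2
    refine pin (fun y => adjN 0 y = true) (fo y0) (fo y1) (fo y2) (fun x' y => Γ.Adj (β x') (β y)) 30 ?_ ?_ ?_ hb0
      (Γ.loopless.irrefl _) ?_ ?_ ?_ ?_ ?_ ?_ (by norm_num) ?_
    · intro p hp x' y hx' hy
      obtain ⟨g, -, hg⟩ := hequi p hp
      rw [hg x' hx', hg y hy]
      exact hinv g _ _
    · intro p hp y
      rw [Y1_inv hp]
    · intro y hy
      exact tr1 y hy
    · refine ⟨?_, ?_⟩
      · show adjN 0 (fo y1) = true
        rw [fo_y1]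
        exact pts_adj.2.1
      · rw [fo_y0, fo_y1]
        exact pts_adj.2.2.1
    · refine ⟨?_, ?_, ?_⟩
      · show adjN 0 (fo y2) = true
        rw [fo_y2]
        exact pts_adj.2.2.2.1
      · intro e
        have e1 := congrArg Fin.val e
        rw [fo_y0, fo_y2] at e1
        have e2 := pts_adj.2.2.2.2.2.1
        rw [beq_false_iff] at e2  
        exact e2 e1.symm
      · rw [fo_y0, fo_y2]
        exact pts_adj.2.2.2.2.1
    · intro y hy ha
      exact tr30 y hy ha
    · intro y hy hne ha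
      exact tr81 y hy hne ha
    · rw [fo_y0]
      exact card_30
    · rw [fo_y0]
      have : (univ.filter fun y : Fin 275 => adjN 0 y = true ∧ y ≠ fo y0 ∧ adjN y0 y = false) =
          (univ.filter fun y : Fin 275 => adjN 0 y = true ∧ (y : ℕ) ≠ y0 ∧ adjN y0 y = false) := by
        ext y
        simp only [mem_filter, mem_univ, true_and]
        have e : y ≠ fo y0 ↔ (y : ℕ) ≠ y0 := by
          rw [← fo_y0]
          exact Fin.val_ne_iff.symm
        rw [e]
      rw [this, card_81]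
      norm_num
    · -- the count
      have h1 := card_common hΓ (hmaps _ hb0)
      rw [← h1]
      refine Finset.card_bij (fun y _ => β y) ?_ ?_ ?_
      · intro y hy
        simp only [mem_filter, mem_univ, true_and] at hy ⊢
        exact ⟨hmaps y hy.1, hy.2⟩
      · intro y hy y' hy' e
        simp only [mem_filter, mem_univ, true_and] at hy hy'
        exact hinj y y' hy.1 hy'.1 e
      · intro u hu
        simp only [mem_filter, mem_univ, true_and] at hu
        obtain ⟨y, rfl⟩ := hsurj u hu.1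
        refine ⟨y.1, ?_, rfl⟩
        simp only [mem_filter, mem_univ, true_and]
        exact ⟨y.2, hu.2⟩
  exact ⟨β, hmaps, hinj, hadj, hequi⟩

/-! ### The twist -/

theorem exists_zip_mem {α β : Type*} {l₁ : List α} {l₂ : List β} (h : l₁.length ≤ l₂.length) {x : α} (hx : x ∈ l₁) :
    ∃ y, (x, y) ∈ List.zip l₁ l₂ := by
  rw [← List.map_fst_zip h, List.mem_map] at hx
  obtain ⟨⟨u, v⟩, huv, e⟩ := hx
  simp only at e
  exact ⟨v, e ▸ huv⟩

theorem Good.twist {β : Fin 275 → Ω} (h : Good G a Γ β) (e : Elt) (es' : List Elt) (hE : twistB e es' = true)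
    (hin : es'.all inP = true) : Good G a Γ (fun y => β ((permOf 9 511 275 e)⁻¹ y)) := by
  simp only [twistB, Bool.and_eq_true] at hE
  obtain ⟨⟨⟨⟨hv, h1⟩, h2⟩, h3⟩, hlen⟩ := hE
  set B := permOf 9 511 275 e with hB
  have hBv : ∀ y : Fin 275, (B y : ℕ) = get 9 511 e.f y := permOf_apply hv
  have hY : ∀ y : Fin 275, adjN 0 (B y) = adjN 0 y := by
    intro y
    rw [hBv]
    exact beq_iff_eq.1 ((allB_iff _ _).1 h1 y y.2)
  have hYi : ∀ y : Fin 275, adjN 0 (B⁻¹ y) = adjN 0 y := by
    intro y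
    have := hY (B⁻¹ y)
    rw [ap_inv] at this
    exact this.symm
  have hA' : ∀ x y : Fin 275, adjN 0 x = true → adjN 0 y = true → adjN (B x) (B y) = adjN x y := by
    intro x y hx hy
    have h4 := (allB_iff _ _).1 h2 x x.2
    simp only [Bool.or_eq_true, Bool.not_eq_true', hx, Bool.true_eq_false, false_or] at h4
    have h5 := (allB_iff _ _).1 h4 y y.2
    simp only [Bool.or_eq_true, Bool.not_eq_true', hy, Bool.true_eq_false, false_or, beq_iff_eq] at h5
    rw [hBv, hBv]
    exact h5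
  have hN : ∀ p ∈ PP, ∃ p' ∈ PP, ∀ y : Fin 275, adjN 0 y = true → p (B y) = B (p' y) := by
    intro p hp
    induction hp using Subgroup.closure_induction with
    | mem p hp =>
      obtain ⟨e₀, he₀, rfl⟩ := hp
      obtain ⟨e', he'⟩ := exists_zip_mem (by rw [Nat.eq_of_beq_eq_true hlen]) he₀
      have he1 : e' ∈ es' := (List.of_mem_zip he').2
      have hi := List.all_eq_true.1 hin e' he1
      have hi' := hi
      simp only [inP, Bool.and_eq_true] at hi'
      refine ⟨permOf 9 511 275 e', mem_PP hi, ?_⟩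
      intro y hy
      have h4 := List.all_eq_true.1 h3 (e₀, e') he'
      have h5 := (allB_iff _ _).1 h4 y y.2
      simp only [Bool.or_eq_true, Bool.not_eq_true', hy, Bool.true_eq_false, false_or] at h5
      have h6 := Nat.eq_of_beq_eq_true h5
      apply Fin.ext
      rw [permOf_apply (es_valid e₀ he₀), hBv, hBv, permOf_apply hi'.1.1]
      exact h6
    | one => exact ⟨1, PP.one_mem, fun y _ => rfl⟩
    | mul p q _ _ ihp ihq =>
      obtain ⟨p', hp', hp⟩ := ihp
      obtain ⟨q', hq', hq⟩ := ihq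
      refine ⟨p' * q', PP.mul_mem hp' hq', ?_⟩
      intro y hy
      rw [Equiv.Perm.mul_apply, Equiv.Perm.mul_apply, hq y hy, hp _ (by rw [Y1_inv hq']; exact hy)]
    | inv p _ ih =>
      obtain ⟨p', hp', hp⟩ := ih
      refine ⟨p'⁻¹, PP.inv_mem hp', ?_⟩
      intro y hy
      rw [Equiv.Perm.inv_eq_iff_eq, hp _ (by rw [Y1_inv (PP.inv_mem hp')]; exact hy)]
      simp
  refine ⟨?_, ?_, ?_, ?_⟩
  · intro y hy
    exact h.maps _ (by rw [hYi]; exact hy)
  · intro x y hx hy hxy
    have := h.inj _ _ (by rw [hYi]; exact hx) (by rw [hYi]; exact hy) hxy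
    exact B⁻¹.injective this
  · intro x y hx hy
    have hx' : adjN 0 (B⁻¹ x) = true := by rw [hYi]; exact hx
    have hy' : adjN 0 (B⁻¹ y) = true := by rw [hYi]; exact hy
    show Γ.Adj (β (B⁻¹ x)) (β (B⁻¹ y)) ↔ _
    rw [h.adj _ _ hx' hy', ← hA' _ _ hx' hy']
    simp
  · intro p hp
    obtain ⟨p', hp', hpp⟩ := hN p hp
    obtain ⟨g, hga, hg⟩ := h.equi p' hp'
    refine ⟨g, hga, ?_⟩
    intro y hy
    have hu : adjN 0 (B⁻¹ y) = true := by rw [hYi]; exact hy
    have h4 := hpp _ hu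
    rw [ap_inv] at h4
    show β (B⁻¹ (p y)) = g • β (B⁻¹ y)
    rw [h4, inv_ap]
    exact hg _ hu

end Cfsg.Agent.Lib.McLRank3.Twist
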